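import Cfsg.Agent.MonU.Basic
import Cfsg.Agent.LES.Monster

/-! The Leech lattice modulo two as a module for an element of order 23. -/

set_option autoImplicit false

namespace Cfsg.Agent.MonU.Am

open Cfsg Cfsg.Spor Cfsg.Agent.Spor Cfsg.Agent.Spor.Leech Matrix Subgroup

theorem cnt_set {X : Type*} {p : ℕ} [Fact p.Prime] (S : Set X) [Finite S] (f : X → X)
    (hf : ∀ x ∈ S, f x ∈ S) (hp : ∀ x ∈ S, f^[p] x = x) :
    Nat.card S ≡ Nat.card {x | x ∈ S ∧ f x = x} [MOD p] := by
  classical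
  have := Fintype.ofFinite S
  let g : Function.End S := fun x => ⟨f x, hf x x.2⟩
  have k : ∀ (n : ℕ) (x : S), ((g ^ n) x : X) = f^[n] x := fun n => by
    induction n with
    | zero => exact fun _ => rfl
    | succ n ih => exact fun x => by rw [pow_succ, Function.iterate_succ_apply]; exact ih (g x)
  have h := Equiv.Perm.card_fixedPoints_modEq (f := g) (p := p) (n := 1)
    (funext fun x => Subtype.ext (by rw [pow_one, k]; exact hp x x.2))
  rw [← Nat.card_eq_fintype_card, ← Nat.card_eq_fintype_card] at h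
  let e : g.fixedPoints ≃ {x | x ∈ S ∧ f x = x} := ⟨fun x => ⟨x.1, x.1.2, congrArg Subtype.val x.2⟩,
    fun x => ⟨⟨x.1, x.2.1⟩, Subtype.ext x.2.2⟩, fun _ => rfl, fun _ => rfl⟩
  rwa [Nat.card_congr e] at h

theorem pow_mod23 {a : ℕ} (h : 2 ^ a ≡ 1 [MOD 23]) : 11 ∣ a := by
  rw [← Nat.mod_add_div a 11, pow_add, pow_mul] at h
  have h1 : (2 ^ 11) ^ (a / 11) ≡ 1 ^ (a / 11) [MOD 23] := Nat.ModEq.pow _ (by decide)
  have h2 := (Nat.ModEq.mul_left (2 ^ (a % 11)) h1).symm.trans h
  rw [one_pow, mul_one] at h2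
  have h3 : a % 11 < 11 := Nat.mod_lt _ (by decide)
  refine Nat.dvd_of_mod_eq_zero ?_
  generalize a % 11 = r at h2 h3
  interval_cases r <;> first | rfl | exact absurd h2 (by decide)

/-- The lattice modulo two. -/
def U : Type := V12 × V12

instance : AddCommGroup U := inferInstanceAs (AddCommGroup (V12 × V12))
instance : Fintype U := inferInstanceAs (Fintype (V12 × V12))
instance : DecidableEq U := inferInstanceAs (DecidableEq (V12 × V12))

theorem U.add_self (u : U) : u + u = 0 := Prod.ext (V12.add_self _) (V12.add_self _)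

theorem card_U : Nat.card U = 2 ^ 24 := by
  rw [show Nat.card U = Nat.card (V12 × V12) from rfl, Nat.card_prod]; simp

/-- The class of an element of the extraspecial group. -/
def cl (q : HQ) : U := (q.a, q.b)

theorem cl_mul (q r : HQ) : cl (q * r) = cl q + cl r := rfl

/-- Reduction modulo two. -/
noncomputable def ψ : leechLattice →+ U :=
  AddMonoidHom.mk' (fun v => cl (psi v)) fun v w => Prod.ext (psi_add v w).1 (psi_add v w).2

theorem ψ_surj (u : U) : ∃ v, ψ v = u := let ⟨v, h⟩ := psi_surj u.1 u.2; ⟨v, congrArg cl h⟩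

theorem ψ_eq_iff {v w : leechLattice} : ψ v = ψ w ↔ ∃ y, v - w = y + y :=
  ⟨fun h => Fr.congr_of_psi (congrArg Prod.fst h) (congrArg Prod.snd h),
    fun ⟨_, h⟩ => congrArg cl (Fr.psi_of_congr h)⟩

theorem ψ_smul_congr (g : Co0) {v w : leechLattice} (h : ψ v = ψ w) : ψ (g • v) = ψ (g • w) := by
  obtain ⟨y, e⟩ := ψ_eq_iff.1 h
  exact ψ_eq_iff.2 ⟨g • y, by rw [← smul_sub, e, smul_add]⟩

noncomputable instance : SMul Co0 U := ⟨fun g u => ψ (g • (ψ_surj u).choose)⟩

theorem smul_ψ (g : Co0) (v : leechLattice) : g • ψ v = ψ (g • v) :=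
  ψ_smul_congr g (ψ_surj _).choose_spec

noncomputable instance : DistribMulAction Co0 U where
  one_smul u := by obtain ⟨v, rfl⟩ := ψ_surj u; rw [smul_ψ, one_smul]
  mul_smul g h u := by obtain ⟨v, rfl⟩ := ψ_surj u; rw [smul_ψ, smul_ψ, smul_ψ, mul_smul]
  smul_zero g := by rw [← map_zero ψ, smul_ψ, smul_zero]
  smul_add g u u' := by
    obtain ⟨v, rfl⟩ := ψ_surj u
    obtain ⟨v', rfl⟩ := ψ_surj u'
    rw [← map_add, smul_ψ, smul_ψ, smul_ψ, smul_add, map_add]

theorem cl_cj (x : Ct) (q : HQ) : cl (cj (mkC x) q) = x.1.1 • cl q := by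
  obtain ⟨v, hv⟩ := psi_surj q.a q.b
  obtain ⟨e, he⟩ := cj_psi x v
  have h1 : q = psi v * ⟨0, 0, q.e⟩ := by rw [hv]; ext1 <;> simp
  have h2 : cl (cj (mkC x) ⟨0, 0, q.e⟩) = 0 := by
    rcases Spor.zmod2_cases q.e with k | k <;> rw [k]
    · exact congrArg cl (cj_map_one _)
    · exact congrArg cl (cj_zq _)
  rw [show cl q = ψ v from (congrArg cl hv).symm, smul_ψ, h1, cj_map_mul, cl_mul, h2, add_zero, he]
  rfl

theorem pm_of_ψ {v w : leechLattice} (hv : sqNorm (v : GolayPt → ℤ) < 64)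
    (hw : sqNorm (w : GolayPt → ℤ) ≤ 64) (h : ψ v = ψ w) : v = w ∨ v = -w :=
  let ⟨_, e⟩ := ψ_eq_iff.1 h; LES.eq_or_neg_of_congr hv hw e

theorem norm_of_ψ {v w : leechLattice} (hv : sqNorm (v : GolayPt → ℤ) ≤ 64)
    (hw : sqNorm (w : GolayPt → ℤ) ≤ 64) (h : ψ v = ψ w) :
    sqNorm (v : GolayPt → ℤ) = sqNorm (w : GolayPt → ℤ) := by
  rcases hv.lt_or_eq with a | a
  · rcases pm_of_ψ a hw h with rfl | rfl
    · rfl
    · exact sqNorm_neg _
  · rcases hw.lt_or_eq with b | b
    · rcases pm_of_ψ b hv h.symm with rfl | rfl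
      · rfl
      · exact (sqNorm_neg _).symm
    · rw [a, b]

/-- The bilinear form. -/
def B (u w : U) : ZMod 2 := u.2 ⬝ᵥ w.1 + w.2 ⬝ᵥ u.1

theorem B_add (u u' w : U) : B (u + u') w = B u w + B u' w := Fr.comm_mul ⟨u.1, u.2, 0⟩ ⟨u'.1, u'.2, 0⟩ ⟨w.1, w.2, 0⟩

theorem B_comm (u w : U) : B u w = B w u := add_comm _ _

theorem B_smul (g : Co0) (u w : U) : B (g • u) (g • w) = B u w := by
  obtain ⟨v, rfl⟩ := ψ_surj u
  obtain ⟨v', rfl⟩ := ψ_surj w
  rw [smul_ψ, smul_ψ]
  have : ip2 (g • v) (g • v') = ip2 v v' := by rw [ip2, ip2, dotInt_smul]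
  exact (comm_psi _ _).trans (this.trans (comm_psi _ _).symm)

theorem eq_zero_of_B {u : U} (h : ∀ w, B u w = 0) : u = 0 :=
  Prod.ext (Fr.eq_of_dot (b' := 0) fun x => by simpa [B, dotProduct_comm] using h (0, x))
    (Fr.eq_of_dot (b' := 0) fun x => by simpa [B] using h (x, 0))

/-- The form as an additive map in the first variable. -/
def Bl (w : U) : U →+ ZMod 2 := AddMonoidHom.mk' (fun u => B u w) fun _ _ => B_add _ _ _

/-- The cyclic shift. -/
def σ : Co0 := permHom t23

theorem σ_pow : σ ^ 23 = 1 := by rw [σ, ← map_pow, t23_pow, map_one]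

/-- Powers of the cyclic shift. -/
def s (j : ZMod 23) : Co0 := σ ^ j.val

theorem s_add (i j : ZMod 23) : s (i + j) = s i * s j := by
  rw [s, s, s, ← pow_add, ZMod.val_add, ← pow_eq_pow_mod _ σ_pow]

theorem s_zero : s 0 = 1 := rfl
theorem s_one : s 1 = σ := pow_one _

theorem s_neg (i : ZMod 23) : s (-i) = (s i)⁻¹ :=
  eq_inv_of_mul_eq_one_left (by rw [← s_add, neg_add_cancel, s_zero])

theorem zmod_ind {P : ZMod 23 → Prop} (h0 : P 0) (h1 : ∀ j, P j → P (j + 1)) (j : ZMod 23) :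
    P j := by
  have : ∀ n : ℕ, P n := fun n => by
    induction n with
    | zero => simpa using h0
    | succ n ih => rw [Nat.cast_succ]; exact h1 _ ih
  simpa using this j.val

theorem s_coord (j : ZMod 23) (v : leechLattice) : ((s j • v : leechLattice) : GolayPt → ℤ) =
    fun p => (v : GolayPt → ℤ) (p.map (· - j)) := by
  induction j using zmod_ind with
  | h0 => funext p; rw [s_zero, one_smul]; cases p <;> simp
  | h1 j ih =>
    funext p
    rw [add_comm, s_add, s_one, mul_smul, σ, permHom_smul, ih]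
    cases p with
    | none => rfl
    | some a =>
      have : (t23 : Equiv.Perm GolayPt).symm (some a) = some (a - 1) := by
        rw [Equiv.symm_apply_eq, t23_some, sub_add_cancel]
      simp only [this, Option.map_some, sub_sub]

theorem s_fix {X : Type*} [MulAction Co0 X] {u : X} (h : σ • u = u) (j : ZMod 23) : s j • u = u := by
  induction j using zmod_ind with
  | h0 => exact one_smul _ _
  | h1 j ih => rw [s_add, s_one, mul_smul, h, ih]

variable {X : Type*} [AddCommGroup X] [DistribMulAction Co0 X]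

/-- Integral combinations of the shifts. -/
def cv (c : ZMod 23 → ℤ) : X →+ X :=
  AddMonoidHom.mk' (fun u => ∑ j, c j • s j • u) fun u w => by
    simp only [smul_add, Finset.sum_add_distrib]

theorem cv_apply (c : ZMod 23 → ℤ) (u : X) : cv c u = ∑ j, c j • s j • u := rfl

theorem smul_zs (g : Co0) (n : ℤ) (u : X) : g • n • u = n • g • u :=
  map_zsmul (DistribSMul.toAddMonoidHom X g) n u

theorem s_cv (i : ZMod 23) (c : ZMod 23 → ℤ) (u : X) : s i • cv c u = cv c (s i • u) := by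
  simp only [cv_apply, Finset.smul_sum, smul_zs, smul_smul, ← s_add, add_comm i]

theorem cv_fix (c : ZMod 23 → ℤ) {u : X} (h : σ • u = u) : cv c u = (∑ j, c j) • u := by
  simp only [cv_apply, s_fix h, Finset.sum_smul]

theorem σ_cv_one (u : X) : σ • cv 1 u = cv 1 u := by
  rw [← s_one, s_cv, cv_apply, cv_apply]
  simp only [smul_smul, ← s_add]
  exact Fintype.sum_equiv (Equiv.addRight 1) _ _ fun _ => rfl

theorem ψ_cv (c : ZMod 23 → ℤ) (v : leechLattice) : ψ (cv c v) = cv c (ψ v) := by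
  simp only [cv_apply, map_sum, map_zsmul, smul_ψ]

theorem cv_coord (c : ZMod 23 → ℤ) (v : leechLattice) : ((cv c v : leechLattice) : GolayPt → ℤ) =
    fun p => ∑ j, c j * (v : GolayPt → ℤ) (p.map (· - j)) := by
  funext p
  simp only [cv_apply, AddSubgroup.val_finsetSum, AddSubgroup.coe_zsmul, Finset.sum_apply,
    Pi.smul_apply, s_coord, smul_eq_mul]

theorem cv_one_fix {u : U} (h : σ • u = u) : cv 1 u = u := by
  rw [cv_fix _ h, show (∑ j : ZMod 23, (1 : ZMod 23 → ℤ) j) = 11 + 11 + 1 by decide, add_smul,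
    add_smul, U.add_self, zero_add, one_smul]

/-- The classes fixed by the shift. -/
theorem fix_σ {u : U} (h : σ • u = u) : u = 0 ∨ u = ψ (e8 none) ∨ u = ψ v3 ∨ u = ψ u5 := by
  obtain ⟨v, rfl⟩ := ψ_surj u
  rw [← cv_one_fix h, ← ψ_cv]
  have hw := fixed_t23 (σ_cv_one v)
  generalize cv 1 v = w at hw
  have h1 : ∀ j, ((w - (w : GolayPt → ℤ) (some 0) • v3 : leechLattice) : GolayPt → ℤ) (some j) = 0 :=
    fun j => by simp [hw, v3_apply]
  obtain ⟨m, -, c, -, h2, h3⟩ := mem_leech_iff.1 (w - (w : GolayPt → ℤ) (some 0) • v3).2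
  have h4 := h2 (some 0)
  rw [Fintype.sum_option] at h3
  simp only [h1, Finset.sum_const_zero, add_zero] at h3 h4
  obtain ⟨n, hn⟩ : 8 ∣ ((w - (w : GolayPt → ℤ) (some 0) • v3 : leechLattice) : GolayPt → ℤ) none := by
    split_ifs at h4 <;> omega
  have h5 : w = (w : GolayPt → ℤ) (some 0) • v3 + n • e8 none := by
    rw [← sub_eq_iff_eq_add']
    refine Subtype.ext (funext fun p => ?_)
    cases p with
    | none => rw [hn]; simp [mul_comm]
    | some j => rw [h1]; simp
  have h6 : ∀ (n : ℤ) (u : U), n • u = 0 ∨ n • u = u := fun n u => by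
    rcases Int.even_or_odd' n with ⟨k, rfl | rfl⟩
    · left; rw [two_mul, add_smul, U.add_self]
    · right; rw [add_smul, two_mul, add_smul, U.add_self, zero_add, one_smul]
  have h7 : ψ v3 + ψ (e8 none) = ψ u5 := by rw [← map_add, v3, sub_add_cancel]
  rw [h5, map_add, map_zsmul, map_zsmul]
  rcases h6 ((w : GolayPt → ℤ) (some 0)) (ψ v3) with a | a <;>
    rcases h6 n (ψ (e8 none)) with b | b <;> simp [a, b, h7]

end Cfsg.Agent.MonU.Am
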