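import Cfsg.Agent.MonU.AmA2
import Cfsg.Agent.MonU.UqA
import Cfsg.Agent.Grp.Card

/-! A subgroup of shape `2^a.(S₃ × M₂₄)` meeting `2^(1+24).Co₁` with index three. -/

set_option autoImplicit false

namespace Cfsg.Agent.MonU.Am

open Cfsg Cfsg.Spor Cfsg.Agent.Spor Cfsg.Agent.Spor.Leech Matrix Subgroup

instance fact23 : Fact (Nat.Prime 23) := ⟨by norm_num⟩

theorem not_dvd_pow (a : ℕ) : ¬ 23 ∣ 2 ^ a := fun h =>
  absurd (fact23.out.dvd_of_dvd_pow h) (by decide)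

theorem exists_fix {X : Type*} (S : Set X) {a : ℕ} (hc : Nat.card S = 2 ^ a) (f : X → X)
    (hf : ∀ x ∈ S, f x ∈ S) (hp : ∀ x ∈ S, f^[23] x = x) : ∃ x ∈ S, f x = x := by
  have : Finite S := Nat.finite_of_card_ne_zero (by rw [hc]; positivity)
  have h := cnt_set S f hf hp
  by_contra hn
  rw [show {x | x ∈ S ∧ f x = x} = ∅ from Set.eq_empty_of_forall_notMem fun x hx => hn ⟨x, hx⟩,
    hc] at h
  exact not_dvd_pow a ((Nat.modEq_zero_iff_dvd).1 (by simpa using h))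

theorem conj_iter {G : Type*} [Group G] {g : G} (hg : g ^ 23 = 1) (x : G) :
    (fun y => g * y * g⁻¹)^[23] x = x := by
  have : ∀ n, (fun y => g * y * g⁻¹)^[n] x = g ^ n * x * (g ^ n)⁻¹ := fun n => by
    induction n with
    | zero => simp
    | succ n ih => rw [Function.iterate_succ_apply', ih, pow_succ']; group
  rw [this, hg]; simp

theorem negOne_mem_center : negOne ∈ center Co0 := Leech.mem_center_iff.2 (Or.inr rfl)

theorem card_two {K : Subgroup Co0} (hK : ∀ k ∈ K, σ * k * σ⁻¹ ∈ K) (h2 : IsPGroup 2 K)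
    (hz : center Co0 ≤ K) (hc : ¬ K ≤ center Co0) : Nat.card K = 2 ^ 12 := by
  obtain ⟨a, ha⟩ := h2.exists_card_eq
  have h := cnt_set (K : Set Co0) (fun y => σ * y * σ⁻¹) hK fun x _ => conj_iter σ_pow x
  rw [show {x | x ∈ (K : Set Co0) ∧ σ * x * σ⁻¹ = x} = center Co0 from Set.ext fun x =>
    ⟨fun hx => let ⟨_, hn⟩ := h2 ⟨x, hx.1⟩
      two_cent (mul_inv_eq_iff_eq_mul.1 hx.2) (congrArg Subtype.val hn),
    fun hx => ⟨hz hx, mul_inv_eq_iff_eq_mul.2 (Subgroup.mem_center_iff.1 hx σ)⟩⟩,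
    SetLike.coe_sort_coe, SetLike.coe_sort_coe, card_center, ha] at h
  have h1 : ¬ a ≤ 1 := fun e => hc (eq_of_le_of_card_ge hz (by
    rw [ha, card_center]; exact Nat.pow_le_pow_right (by decide) e)).ge
  have h3 : ¬ 23 ≤ a := fun e => by
    have := (pow_dvd_pow 2 e).trans (ha ▸ K.card_subgroup_dvd_card)
    rw [card_Co0] at this
    exact absurd this (by norm_num)
  obtain ⟨b, rfl⟩ : ∃ b, a = b + 1 := ⟨a - 1, by omega⟩
  have := pow_mod23 (Nat.ModEq.cancel_right_of_coprime (c := 2) (by decide)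
    (by rwa [one_mul, ← pow_succ]))
  rw [ha]; congr 1; omega

theorem frame_of {K P : Subgroup Co0} (hKP : ∀ p ∈ P, ∀ k ∈ K, p * k * p⁻¹ ∈ K) (hσ : σ ∈ P)
    (h2 : IsPGroup 2 K) (hz : center Co0 ≤ K) (hle : K ≤ P) (hc : ¬ K ≤ center Co0)
    (hi : K.relIndex P = 244823040) : P = monoSub := by
  have hP := Grp.card_mul_relIndex hle
  rw [card_two (hKP σ hσ) h2 hz hc, hi] at hP
  obtain ⟨u, hu, h0⟩ := h2.exists_fixed_point_of_prime_dvd_card_of_fixed_point U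
    (by rw [card_U]; norm_num) (a := 0) fun k => smul_zero k
  have h1 : ∀ p ∈ P, σ • p • u = p • u := fun p hp => fixU (hKP σ hσ) h2 hc fun k hk => by
    have := hu ⟨_, hKP _ (inv_mem hp) k hk⟩
    rwa [Subgroup.mk_smul, inv_inv, mul_smul, mul_smul, inv_smul_eq_iff] at this
  have h3 : ∀ w : leechLattice, w = e8 none ∨ w = v3 ∨ w = u5 → u = ψ w → ∀ p ∈ P,
      ψ (p • w) = ψ w := fun w hw e p hp => by
    have n1 := sqNorm_e8 none
    have n2 := sqNorm_v3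
    have n3 := sqNorm_u5
    have n4 := sqNorm_smul p w
    have n5 : sqNorm ((0 : leechLattice) : GolayPt → ℤ) = 0 := by decide
    have a := fix_σ (h1 p hp)
    rw [e, smul_ψ, ← map_zero ψ] at a
    rcases a with a | a | a | a <;> have b := norm_of_ψ (by rcases hw with rfl | rfl | rfl <;> omega)
      (by omega) a <;> rcases hw with rfl | rfl | rfl <;> first | exact a | omega
  have h4 : ∀ w : leechLattice, sqNorm (w : GolayPt → ℤ) < 64 → (∀ p ∈ P, ψ (p • w) = ψ w) →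
      Nat.card P ∣ Nat.card (MulAction.stabilizer Co0 w) * 2 := fun w hw h => by
    rw [← Grp.card_inf_mul_relIndex' (MulAction.stabilizer Co0 w) P]
    refine mul_dvd_mul (card_dvd_of_le inf_le_left) (relIndex_dvd_two_iff.2
      ⟨negOne, hle (hz negOne_mem_center), fun p hp => ?_⟩)
    rcases pm_of_ψ (by rwa [sqNorm_smul]) hw.le (h p hp) with e | e
    · exact Or.inr e
    · left; rw [MulAction.mem_stabilizer_iff, mul_smul, negOne_smul, smul_neg, e, neg_neg]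
  have a := fix_σ (h1 1 (one_mem _))
  rw [one_smul] at a
  rcases a with a | a | a | a
  · exact absurd a.symm h0
  · exact eq_of_le_of_card_ge (fun p hp => LES.mem_monoSub_iff_congr.2
      (ψ_eq_iff.1 (h3 _ (Or.inl rfl) a p hp))) (by rw [← hP, card_monoSub']; decide)
  · have := h4 _ (by rw [sqNorm_v3]; decide) (h3 _ (Or.inr (Or.inl rfl)) a)
    rw [← hP, card_stab_32 sqNorm_v3] at this
    exact absurd this (by norm_num)
  · have := h4 _ (by rw [sqNorm_u5]; decide) (h3 _ (Or.inr (Or.inr rfl)) a)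
    rw [← hP, card_stab_48 sqNorm_u5] at this
    exact absurd this (by norm_num)

theorem ψ_e8 : ψ (e8 none) = pr 0 e11 :=
  (congrArg ψ (Subtype.ext (by decide +kernel))).trans (congrArg cl (psi_uV 11))

theorem ψ_v3 : ψ v3 = pr e11 0 :=
  (congrArg ψ (Subtype.ext (by decide +kernel))).trans (congrArg cl (psi_wV 11))

theorem ψ_u5 : ψ u5 = pr e11 e11 := by
  rw [← sub_add_cancel u5 (e8 none), ← v3, map_add, ψ_e8, ψ_v3]
  exact Prod.ext (add_zero _) (zero_add _)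

theorem eq_of_cl {q r : HQ} (h : cl q = cl r) : q = r ∨ q = r * zq := by
  have a : q.a = r.a := congrArg Prod.fst h
  have b : q.b = r.b := congrArg Prod.snd h
  have : ∀ s t : ZMod 2, s = t ∨ s = t + 1 := by decide
  exact (this q.e r.e).imp (HQ.ext a b) fun e => HQ.ext (by simp [zq, a]) (by simp [zq, b])
    (by simp [zq, e])

theorem comm_of_B {q r : HQ} (h : B (cl q) (cl r) = 0) : q * r = r * q := by
  have := cj_qC' q r
  rw [cj_qC, show comm q r = 0 from h, add_zero] at this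
  exact mul_inv_eq_iff_eq_mul.1 this

/-- The projection of a compatible pair. -/
noncomputable def fs : Ct →* Co0 := (MonoidHom.fst _ _).comp Ct.subtype

/-- The symmetric group of degree three. -/
abbrev S3 : Type := Equiv.Perm (Fin 3)

variable {G : Type*} [Group G]

/-- The data of the amalgam `C, N`. -/
structure Dat (J : Ct →* G) (N : Subgroup G) (Θ : G → S3 × M24) (t : S3) (x : Ct) : Prop where
  inj : Function.Injective (J.comp qT)
  ker : ∀ y, J y ∈ (J.comp qT).range ↔ fs y ∈ center Co0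
  fin : Finite N
  mul : ∀ a ∈ N, ∀ b ∈ N, Θ (a * b) = Θ a * Θ b
  surj : ∀ s, ∃ n ∈ N, Θ n = s
  two : ∀ n ∈ N, Θ n = 1 → ∃ k, n ^ 2 ^ k = 1
  t1 : t ≠ 1
  t2 : t * t = 1
  memC : ∀ n ∈ N, n ∈ J.range ↔ (Θ n).1 = 1 ∨ (Θ n).1 = t
  x1 : fs x = σ
  x2 : x ^ 23 = 1
  x3 : J x ∈ N
  hL : ∀ M ≤ N, (∀ n ∈ N, ∀ m ∈ M, n * m * n⁻¹ ∈ M) →
    (∀ m ∈ M, m ∈ J.range → m ∈ (J.comp qT).range) → M ≤ J.range

theorem conjQ (J : Ct →* G) (y : Ct) (q : HQ) :
    J y * J (qT q) * (J y)⁻¹ = J (qT (cj (mkC y) q)) := by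
  rw [UA.qT_cj, map_mul, map_mul, map_inv]

theorem comm_z (J : Ct →* G) (y : Ct) : J y * J (qT zq) = J (qT zq) * J y :=
  mul_inv_eq_iff_eq_mul.1 (by rw [conjQ, cj_zq])

namespace Dat

variable {J : Ct →* G} {N : Subgroup G} {Θ : G → S3 × M24} {t : S3} {x : Ct}
  (d : Dat J N Θ t x)
include d

theorem one : Θ 1 = 1 := by simpa using d.mul 1 (one_mem _) 1 (one_mem _)

theorem inv {n : G} (h : n ∈ N) : Θ n⁻¹ = (Θ n)⁻¹ :=
  eq_inv_of_mul_eq_one_left (by rw [← d.mul _ (inv_mem h) _ h, inv_mul_cancel, d.one])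

theorem pow {n : G} (h : n ∈ N) (k : ℕ) : Θ (n ^ k) = Θ n ^ k := by
  induction k with
  | zero => simpa using d.one
  | succ k ih => rw [pow_succ, d.mul _ (pow_mem h k) _ h, ih, pow_succ]

theorem conj {n m : G} (h : n ∈ N) (h' : m ∈ N) : Θ (n * m * n⁻¹) = Θ n * Θ m * (Θ n)⁻¹ := by
  rw [d.mul _ (mul_mem h h') _ (inv_mem h), d.mul _ h _ h', d.inv h]

/-- The kernel. -/
def K : Subgroup G where
  carrier := {n | n ∈ N ∧ Θ n = 1}
  one_mem' := ⟨one_mem _, d.one⟩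
  mul_mem' a b := ⟨mul_mem a.1 b.1, by rw [d.mul _ a.1 _ b.1, a.2, b.2, one_mul]⟩
  inv_mem' a := ⟨inv_mem a.1, by rw [d.inv a.1, a.2, inv_one]⟩

theorem K_conj {n m : G} (h : n ∈ N) (h' : m ∈ d.K) : n * m * n⁻¹ ∈ d.K :=
  ⟨mul_mem (mul_mem h h'.1) (inv_mem h), by rw [d.conj h h'.1, h'.2]; simp⟩

theorem finite {M : Subgroup G} (h : M ≤ N) : Finite M :=
  have := d.fin; Finite.of_injective _ (inclusion_injective h)

theorem K_two : IsPGroup 2 d.K := fun k => (d.two k k.2.1 k.2.2).imp fun _ => Subtype.ext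

theorem K_le : d.K ≤ J.range := fun k hk => (d.memC k hk.1).2 (Or.inl (by rw [hk.2]; rfl))

theorem g23 : J x ^ 23 = 1 := by rw [← map_pow, d.x2, map_one]

theorem g1 : (Θ (J x)).1 = 1 := by
  have := congrArg Prod.fst (d.pow d.x3 23)
  rw [d.g23, d.one] at this
  exact (by decide +kernel : ∀ s : S3, 1 = s ^ 23 → s = 1) _ this

theorem exists_comm (s : S3) : ∃ n ∈ N, Θ n = (s, 1) ∧ J x * n * (J x)⁻¹ = n := by
  obtain ⟨n, hn, e⟩ := d.surj (s, 1)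
  have := d.finite (M := d.K) fun _ h => h.1
  obtain ⟨a, ha⟩ := d.K_two.exists_card_eq
  let E : {m | m ∈ N ∧ Θ m = (s, 1)} ≃ d.K :=
    ⟨fun m => ⟨n⁻¹ * m, mul_mem (inv_mem hn) m.2.1, by
        rw [d.mul _ (inv_mem hn) _ m.2.1, d.inv hn, e, m.2.2, inv_mul_cancel]⟩,
      fun k => ⟨n * k, mul_mem hn k.2.1, by rw [d.mul _ hn _ k.2.1, k.2.2, mul_one, e]⟩,
      fun _ => by simp, fun _ => by simp⟩
  obtain ⟨m, hm, e⟩ := exists_fix _ ((Nat.card_congr E).trans ha) (fun y => J x * y * (J x)⁻¹)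
    (fun m hm => ⟨mul_mem (mul_mem d.x3 hm.1) (inv_mem d.x3), by
      rw [d.conj d.x3 hm.1, hm.2]; exact Prod.ext (by simp [d.g1]) (by simp)⟩)
    fun m _ => conj_iter d.g23 m
  exact ⟨m, hm.1, hm.2, e⟩

theorem fs_pow {y : Ct} {n : ℕ} (h : J y ^ 2 ^ n = 1) : fs y ^ 2 ^ (n + 1) = 1 := by
  have := (d.ker (y ^ 2 ^ n)).1 (by rw [map_pow, h]; exact one_mem _)
  rw [pow_succ, pow_mul, ← map_pow, pow_two]
  rcases Leech.mem_center_iff.1 this with e | e <;> rw [e]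
  · exact one_mul _
  · exact negOne_mul_self

theorem exists_q {m : G} (hC : m ∈ J.range) {n : ℕ} (h2 : m ^ 2 ^ n = 1)
    (h : J x * m * (J x)⁻¹ = m) : ∃ q, J (qT q) = m ∧ σ • cl q = cl q := by
  obtain ⟨y, rfl⟩ := hC
  have h1 := (d.ker (y⁻¹ * (x * y * x⁻¹))).1 (by
    rw [map_mul, map_mul, map_mul, map_inv, map_inv, h, inv_mul_cancel]; exact one_mem _)
  rw [map_mul, map_mul, map_mul, map_inv, map_inv, d.x1] at h1
  obtain ⟨q, hq⟩ := (d.ker y).2 (two_cent (comm_σ h1) (d.fs_pow h2))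
  refine ⟨q, hq, ?_⟩
  rw [← show J (qT q) = J y from hq, conjQ] at h
  have := cl_cj x q
  rwa [d.inj h, show x.1.1 = σ from d.x1, eq_comm] at this

theorem exists_u : ∃ r, J (qT r) ∈ N ∧ Θ (J (qT r)) = (t, 1) ∧ σ • cl r = cl r ∧
    J x * J (qT r) * (J x)⁻¹ = J (qT r) := by
  obtain ⟨n, hn, e, c⟩ := d.exists_comm t
  obtain ⟨k, hk⟩ := d.two (n ^ 2) (pow_mem hn 2) (by
    rw [d.pow hn, e, pow_two]; exact Prod.ext d.t2 (one_mul _))
  obtain ⟨q, rfl, h⟩ := d.exists_q ((d.memC n hn).2 (Or.inr (by rw [e]))) (n := k + 1)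
    (by rw [pow_succ', pow_mul, hk]) c
  exact ⟨q, hn, e, h, c⟩

theorem false_of_u {M : Subgroup G} (hM : M ≤ N) (hn : ∀ n ∈ N, ∀ m ∈ M, n * m * n⁻¹ ∈ M)
    (hQ : ∀ m ∈ M, m ∈ J.range → m ∈ (J.comp qT).range) {u : G} (hu : u ∈ M)
    (e : (Θ u).1 = t) : False := by
  obtain ⟨c, h1, h2⟩ := (by decide : ∀ t : S3, t ≠ 1 → t * t = 1 →
    ∃ c : S3, c * t * c⁻¹ ≠ 1 ∧ c * t * c⁻¹ ≠ t) t d.t1 d.t2
  obtain ⟨n, h, e'⟩ := d.surj (c, 1)
  have := (d.memC _ (hM (hn n h u hu))).1 (d.hL M hM hn hQ (hn n h u hu))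
  rw [d.conj h (hM hu), e', Prod.fst_mul, Prod.fst_mul, e] at this
  exact this.elim h1 h2

theorem snd_Q {q : HQ} (h : J (qT q) ∈ N) : (Θ (J (qT q))).2 = 1 := by
  let T : Subgroup M24 :=
    { carrier := {μ | ∃ q, J (qT q) ∈ N ∧ (Θ (J (qT q))).2 = μ}
      one_mem' := ⟨1, by simp [one_mem], by simp [d.one]⟩
      mul_mem' := by
        rintro _ _ ⟨q, a, rfl⟩ ⟨r, b, rfl⟩
        exact ⟨q * r, by simpa using mul_mem a b, by rw [map_mul, map_mul, d.mul _ a _ b]; rfl⟩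
      inv_mem' := by
        rintro _ ⟨q, a, rfl⟩
        exact ⟨q⁻¹, by simpa using a, by rw [map_inv, map_inv, d.inv a]; rfl⟩ }
  have : T.Normal := ⟨by
    rintro _ ⟨q, a, rfl⟩ μ
    obtain ⟨n, hn, e⟩ := d.surj (1, μ)
    obtain ⟨y, rfl⟩ := (d.memC n hn).2 (Or.inl (by rw [e]))
    exact ⟨_, conjQ J y q ▸ mul_mem (mul_mem hn a) (inv_mem hn), by
      rw [← conjQ, d.conj hn a, e]; rfl⟩⟩
  have hT := LES.Co.M24_normal_two_eq_bot T (by
    rintro ⟨_, q, a, rfl⟩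
    refine ⟨2, Subtype.ext ?_⟩
    have : q ^ 2 ^ 2 = 1 := by
      rw [show 2 ^ 2 = 2 * 2 from rfl, pow_mul, pow_two, pow_two]; ext1 <;> simp [GD.add_self]
    exact (congrArg Prod.snd (d.pow a _)).symm.trans (by
      rw [← map_pow, ← map_pow, this, map_one, map_one, d.one]; rfl))
  exact (mem_bot.1 (hT ▸ ⟨q, h, rfl⟩ : _ ∈ (⊥ : Subgroup M24)))

theorem mem_of_max {H : Subgroup G} (h1 : ∀ n ∈ N, n ∈ J.range → n ∈ H) {m : G} (hm : m ∈ N)
    (h2 : m ∈ H) (h3 : m ∉ J.range) : N ≤ H := fun n hn => by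
  rw [d.memC m hm, not_or] at h3
  have hp : ∀ a, a = 1 ∨ a = t → ∃ p ∈ N, p ∈ H ∧ (Θ p).1 = a := fun a ha =>
    let ⟨p, b, e⟩ := d.surj (a, 1); ⟨p, b, h1 p b ((d.memC p b).2 (by rw [e]; exact ha)), by rw [e]⟩
  rcases (by decide +kernel : ∀ t c s : S3, t ≠ 1 → t * t = 1 → c ≠ 1 → c ≠ t → (s = 1 ∨ s = t) ∨
    ∃ a b : S3, (a = 1 ∨ a = t) ∧ (b = 1 ∨ b = t) ∧ (a * c * b)⁻¹ * s = 1) t _ (Θ n).1 d.t1 d.t2
      h3.1 h3.2 with e | ⟨a, b, ha, hb, e⟩
  · exact h1 n hn ((d.memC n hn).2 e)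
  · obtain ⟨p, p1, p2, rfl⟩ := hp a ha
    obtain ⟨p', p1', p2', rfl⟩ := hp b hb
    have c := mul_mem (mul_mem p1 hm) p1'
    have := h1 _ (mul_mem (inv_mem c) hn) ((d.memC _ (mul_mem (inv_mem c) hn)).2 (Or.inl (by
      rw [d.mul _ (inv_mem c) _ hn, d.inv c, d.mul _ (mul_mem p1 hm) _ p1', d.mul _ p1 _ hm]
      exact e)))
    exact (H.mul_mem_cancel_left (inv_mem (mul_mem (mul_mem p2 h2) p2'))).1 this

theorem center_le (M : Subgroup G) : center Co0 ≤ (M.comap J).map fs := fun z hz => by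
  obtain ⟨y, rfl⟩ : ∃ y, fs y = z := Ct_surj z
  obtain ⟨q, hq⟩ := (d.ker y).2 hz
  refine ⟨(qT q)⁻¹ * y, ?_, ?_⟩
  · rw [SetLike.mem_coe, mem_comap, map_mul, map_inv, ← hq]; simp [one_mem]
  · rw [map_mul, map_inv, show fs (qT q) = 1 from rfl, inv_one, one_mul]

omit d in
theorem lift_conj {M : Subgroup G} {y : Ct} (h : ∀ m ∈ M, J y * m * (J y)⁻¹ ∈ M) :
    ∀ k ∈ (M.comap J).map fs, fs y * k * (fs y)⁻¹ ∈ (M.comap J).map fs := by
  rintro _ ⟨k, hk, rfl⟩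
  exact ⟨y * k * y⁻¹, by simpa using h _ hk, by simp⟩

theorem lift_two {M : Subgroup G} (h : ∀ m ∈ M, m ∈ J.range → ∃ n, m ^ 2 ^ n = 1) :
    IsPGroup 2 ((M.comap J).map fs) := by
  rintro ⟨_, y, hy, rfl⟩
  obtain ⟨n, hn⟩ := h _ hy ⟨y, rfl⟩
  exact ⟨n + 1, Subtype.ext (d.fs_pow hn)⟩

/-- Either `M ∩ C ≤ Q` or the classes fixed by `M` are fixed by the shift. -/
theorem fix_or {M : Subgroup G} (h : ∀ m ∈ M, m ∈ J.range → ∃ n, m ^ 2 ^ n = 1)
    (hg : ∀ m ∈ M, J x * m * (J x)⁻¹ ∈ M) {m : G} (hm : m ∈ M) (h1 : m ∈ J.range)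
    (h2 : m ∉ (J.comp qT).range) {q : HQ} (hq : ∀ y, J y ∈ M → cl (cj (mkC y) q) = cl q) :
    σ • cl q = cl q := by
  obtain ⟨y, rfl⟩ := h1
  refine fixU (d.x1 ▸ lift_conj hg) (d.lift_two h) (fun e => h2 ((d.ker y).2 (e ⟨y, hm, rfl⟩))) ?_
  rintro _ ⟨k, hk, rfl⟩
  exact (cl_cj k q).symm.trans (hq k hk)

theorem not_K_le : ¬ d.K ≤ (J.comp qT).range := fun h => by
  let M : Subgroup G :=
    { carrier := {n | n ∈ N ∧ (Θ n).2 = 1 ∧ (Θ n).1 ^ 3 = 1}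
      one_mem' := ⟨one_mem _, by simp [d.one]⟩
      mul_mem' := fun a b => ⟨mul_mem a.1 b.1, by rw [d.mul _ a.1 _ b.1, Prod.snd_mul, a.2.1, b.2.1,
        one_mul], by
          rw [d.mul _ a.1 _ b.1]
          exact (by decide +kernel : ∀ s r : S3, s ^ 3 = 1 → r ^ 3 = 1 → (s * r) ^ 3 = 1) _ _
            a.2.2 b.2.2⟩
      inv_mem' := fun a => ⟨inv_mem a.1, by simp [d.inv a.1, a.2.1, a.2.2]⟩ }
  obtain ⟨n, hn, e⟩ := d.surj (finRotate 3, 1)
  have k : ∀ t s : S3, t * t = 1 → s ^ 3 = 1 → s = 1 ∨ s = t → s = 1 := by decide +kernel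
  have := d.hL M (fun _ h => h.1) (fun n hn m hm => ⟨mul_mem (mul_mem hn hm.1) (inv_mem hn), by
      simp [d.conj hn hm.1, hm.2.1, hm.2.2, conj_pow]⟩)
    (fun m hm hC => h ⟨hm.1, Prod.ext (k t _ d.t2 hm.2.2 ((d.memC m hm.1).1 hC)) hm.2.1⟩)
    (show n ∈ M from ⟨hn, by rw [e], by rw [e]; decide⟩)
  have := k t _ d.t2 (by rw [e]; decide) ((d.memC n hn).1 this)
  rw [e] at this
  exact absurd this (by decide)

theorem lift_N : (N.comap J).map fs = monoSub := by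
  obtain ⟨r, r1, r2, -⟩ := d.exists_u
  refine frame_of (K := (d.K.comap J).map fs) ?_ ⟨x, d.x3, d.x1⟩
    (d.lift_two fun m hm _ => d.two m hm.1 hm.2) (d.center_le _)
    (map_mono fun _ h => h.1) (fun e => d.not_K_le fun k hk => ?_) ?_
  · rintro _ ⟨y, hy, rfl⟩
    exact lift_conj fun _ => d.K_conj hy
  · obtain ⟨y, rfl⟩ := d.K_le hk
    exact (d.ker y).2 (e ⟨y, hk, rfl⟩)
  · let μ : N.comap J →* M24 := MonoidHom.mk' (fun y => (Θ (J y)).2) fun a b => by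
      rw [Subgroup.coe_mul, map_mul, d.mul _ a.2 _ b.2]; rfl
    have h1 : (((d.K.comap J).map fs).comap fs).subgroupOf (N.comap J) = μ.ker := by
      ext ⟨y, hy⟩
      constructor
      · rintro ⟨k, hk, e⟩
        obtain ⟨q, hq⟩ := (d.ker (k⁻¹ * y)).2 (by
          rw [map_mul, map_inv, e]; simp [one_mem])
        have a := mul_mem (inv_mem hk.1) hy
        rw [← map_inv, ← map_mul] at a
        have b := d.snd_Q (q := q) (hq ▸ a :)
        rw [show J (qT q) = _ from hq, map_mul, map_inv, d.mul _ (inv_mem hk.1) _ hy, d.inv hk.1,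
          hk.2] at b
        exact (by simpa using b : (Θ (J y)).2 = 1)
      · intro e
        rcases (d.memC _ hy).1 ⟨y, rfl⟩ with a | a
        · exact ⟨y, ⟨hy, Prod.ext a e⟩, rfl⟩
        · refine ⟨y * (qT r)⁻¹, ⟨by simpa using mul_mem hy (inv_mem r1), ?_⟩, ?_⟩
          · rw [map_mul, map_inv, d.mul _ hy _ (inv_mem r1), d.inv r1, r2, mul_inv_eq_one]
            exact Prod.ext a e
          · rw [map_mul, map_inv, show fs (qT r) = 1 from rfl, inv_one, mul_one]; rfl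
    rw [← relIndex_comap, relIndex, h1, index_ker, MonoidHom.range_eq_top.2 fun m => ?_, card_top,
      M24C.card_M24]
    obtain ⟨n, hn, e⟩ := d.surj (1, m)
    obtain ⟨y, rfl⟩ := (d.memC n hn).2 (Or.inl (by rw [e]))
    exact ⟨⟨y, hn⟩, congrArg Prod.snd e⟩

omit d in
/-- The classes of the elements of `Q` in a subgroup. -/
def cls (J : Ct →* G) (M : Subgroup G) : AddSubgroup U where
  carrier := {u | ∃ q, J (qT q) ∈ M ∧ cl q = u}
  zero_mem' := ⟨1, by simp [one_mem], rfl⟩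
  add_mem' := by
    rintro _ _ ⟨q, a, rfl⟩ ⟨r, b, rfl⟩
    exact ⟨q * r, by simpa using mul_mem a b, rfl⟩
  neg_mem' := fun {u} hu => by rwa [neg_eq_of_add_eq_zero_left (U.add_self u)]

theorem Q_le_or {M : Subgroup G} (hn : ∀ n ∈ N, ∀ m ∈ M, n * m * n⁻¹ ∈ M) :
    (∀ q, J (qT q) ∈ M) ∨
      ∀ q, J (qT q) ∈ M → σ • cl q = cl q → cl q = 0 ∨ cl q = pr 0 e11 := by
  by_cases h : ψ v3 ∈ cls J M ∨ ψ u5 ∈ cls J M
  · have h1 := gen_top (M := cls J M) (fun g hg => by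
      rw [← d.lift_N] at hg
      obtain ⟨y, hy, rfl⟩ := hg
      rintro _ ⟨q, a, rfl⟩
      exact ⟨_, conjQ J y q ▸ hn _ hy _ a, cl_cj y q⟩) h
    have hz : J (qT zq) ∈ M := by
      obtain ⟨q, a, e⟩ := h1 (pr e11 0)
      obtain ⟨r, b, e'⟩ := h1 (pr 0 e11)
      have := mul_mem (mul_mem (mul_mem a b) (inv_mem a)) (inv_mem b)
      simp only [← map_mul, ← map_inv] at this
      rw [← cj_qC, cj_qC', show comm q r = B (cl q) (cl r) from rfl, e, e'] at this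
      convert this using 3
      ext1 <;> simp [zq, B, pr, e11, add_assoc, add_left_comm, GD.add_self]
      rw [← add_assoc, GD.add_self, zero_add]
    refine Or.inl fun q => ?_
    obtain ⟨r, a, e⟩ := h1 (cl q)
    rcases eq_of_cl e.symm with rfl | rfl
    · exact a
    · simpa using mul_mem a hz
  · refine Or.inr fun q hq e => ?_
    rcases fix_σ e with a | a | a | a
    · exact Or.inl a
    · exact Or.inr (a.trans ψ_e8)
    · exact absurd (Or.inl ⟨q, hq, a⟩) h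
    · exact absurd (Or.inr ⟨q, hq, a⟩) h

theorem not_cent {u : G} (hu : u ∈ N) (e : Θ u = (t, 1)) (h : ∀ k ∈ d.K, u * k = k * u) : False := by
  have k1 : ∀ t s : S3, t * t = 1 → s ^ 3 = 1 → s = 1 ∨ s = t → s = 1 := by decide +kernel
  have k2 : ∀ k ∈ d.K, k ^ 3 = 1 → k = 1 := fun k hk e => by
    obtain ⟨n, hn⟩ := d.two k hk.1 hk.2
    rw [← orderOf_eq_one_iff]
    exact Nat.eq_one_of_dvd_coprimes (Nat.Coprime.pow_right n (by norm_num : Nat.Coprime 3 2))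
      (orderOf_dvd_of_pow_eq_one e) (orderOf_dvd_of_pow_eq_one hn)
  have k3 : ∀ n ∈ N, ∀ m, (∀ k ∈ d.K, m * k = k * m) → ∀ k ∈ d.K,
      n * m * n⁻¹ * k = k * (n * m * n⁻¹) := fun n hn m hm k hk => by
    have := hm _ (d.K_conj (inv_mem hn) hk)
    calc _ = n * (m * (n⁻¹ * k * n⁻¹⁻¹)) * n⁻¹ := by group
      _ = _ := by rw [this]; group
  have k4 : ∀ {n}, n ∈ N → n ^ 3 = 1 → (Θ n).1 ^ 3 = 1 := fun hn e => by
    rw [← Prod.pow_fst, ← d.pow hn, e, d.one]; rfl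
  let M : Subgroup G :=
    { carrier := {n | n ∈ N ∧ (Θ n).2 = 1 ∧ n ^ 3 = 1 ∧ ∀ k ∈ d.K, n * k = k * n}
      one_mem' := ⟨one_mem _, by simp [d.one]⟩
      mul_mem' := fun {a b} ha hb => ⟨mul_mem ha.1 hb.1, by
        rw [d.mul _ ha.1 _ hb.1, Prod.snd_mul, ha.2.1, hb.2.1, one_mul], by
          have c1 := mul_mem (mul_mem ha.1 hb.1) (inv_mem ha.1)
          have c : b⁻¹ * (a * b * a⁻¹) ∈ d.K := ⟨mul_mem (inv_mem hb.1) c1, by
            rw [d.mul _ (inv_mem hb.1) _ c1, d.inv hb.1, d.conj ha.1 hb.1]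
            exact Prod.ext ((by decide +kernel : ∀ s r : S3, s ^ 3 = 1 → r ^ 3 = 1 →
              r⁻¹ * (s * r * s⁻¹) = 1) _ _ (k4 ha.1 ha.2.2.1) (k4 hb.1 hb.2.2.1))
              (by simp [ha.2.1, hb.2.1])⟩
          have c2 : (b * (b⁻¹ * (a * b * a⁻¹))) ^ 3 = 1 := by
            rw [mul_inv_cancel_left, conj_pow, hb.2.2.1]; simp
          rw [Commute.mul_pow (hb.2.2.2 _ c), hb.2.2.1, one_mul] at c2
          have c3 := k2 _ c c2
          rw [inv_mul_eq_one, eq_mul_inv_iff_mul_eq] at c3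
          rw [Commute.mul_pow c3.symm, ha.2.2.1, hb.2.2.1, one_mul],
        fun k hk => Commute.mul_left (ha.2.2.2 k hk) (hb.2.2.2 k hk)⟩
      inv_mem' := fun a => ⟨inv_mem a.1, by simp [d.inv a.1, a.2.1], by simp [a.2.2.1],
        fun k hk => Commute.inv_left (a.2.2.2 k hk)⟩ }
  obtain ⟨c, h1, h2⟩ := (by decide +kernel : ∀ t : S3, t ≠ 1 → t * t = 1 →
    ∃ c : S3, (c * t * c⁻¹ * t) ^ 3 = 1 ∧ c * t * c⁻¹ * t ≠ 1) t d.t1 d.t2
  obtain ⟨n, hn, e'⟩ := d.surj (c, 1)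
  have c1 := mul_mem (mul_mem hn hu) (inv_mem hn)
  have c2 := mul_mem c1 hu
  have c3 : Θ (n * u * n⁻¹ * u) = (c * t * c⁻¹ * t, 1) := by
    rw [d.mul _ c1 _ hu, d.conj hn hu, e, e']; simp
  have c4 : ∀ k ∈ d.K, n * u * n⁻¹ * u * k = k * (n * u * n⁻¹ * u) := fun k hk =>
    Commute.mul_left (k3 n hn u h k hk) (h k hk)
  generalize n * u * n⁻¹ * u = w at c2 c3 c4
  obtain ⟨j, hj⟩ := d.two (w ^ 3) (pow_mem c2 3) (by rw [d.pow c2, c3]; simp [h1])
  have c5 : w ^ 2 ^ j ∈ M := ⟨pow_mem c2 _, by simp [d.pow c2, c3], by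
    rw [← pow_mul, mul_comm, pow_mul, hj], fun k hk => Commute.pow_left (c4 k hk) _⟩
  have := d.hL M (fun _ h => h.1) (fun n hn m hm => ⟨mul_mem (mul_mem hn hm.1) (inv_mem hn), by
      simp [d.conj hn hm.1, hm.2.1], by simp [conj_pow, hm.2.2.1], k3 n hn m hm.2.2.2⟩)
    (fun m hm hC => by
      rw [k2 m ⟨hm.1, Prod.ext (k1 t _ d.t2 (k4 hm.1 hm.2.2.1) ((d.memC m hm.1).1 hC)) hm.2.1⟩
        hm.2.2.1]
      exact one_mem _) c5
  have := k1 t _ d.t2 (k4 c5.1 c5.2.2.1) ((d.memC _ c5.1).1 this)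
  rw [d.pow c2, c3, Prod.pow_fst] at this
  refine h2 (orderOf_eq_one_iff.1 ?_)
  exact Nat.eq_one_of_dvd_coprimes (Nat.Coprime.pow_right j (by norm_num : Nat.Coprime 3 2))
    (orderOf_dvd_of_pow_eq_one h1) (orderOf_dvd_of_pow_eq_one this)

end Dat

end Cfsg.Agent.MonU.Am
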