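import Cfsg.Agent.MonU.AmB
import Cfsg.Agent.TT.XS

/-! The subgroup `N` contains `Q` and fuses `z` to the frame involution. -/

set_option autoImplicit false

namespace Cfsg.Agent.MonU.Am

open Cfsg Cfsg.Spor Cfsg.Agent.Spor Cfsg.Agent.Spor.Leech Matrix Subgroup

variable {G : Type*} [Group G]

theorem exists_fix_coset {g : G} (hg : g ^ 23 = 1) {B : Subgroup G} [Finite B] (h2 : IsPGroup 2 B)
    (hB : ∀ b ∈ B, g * b * g⁻¹ ∈ B) {a : G} (ha : a⁻¹ * (g * a * g⁻¹) ∈ B) :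
    ∃ b ∈ B, g * (a * b) * g⁻¹ = a * b := by
  obtain ⟨n, hn⟩ := h2.exists_card_eq
  obtain ⟨b, hb, e⟩ := exists_fix (B : Set G) hn (fun b => a⁻¹ * (g * (a * b) * g⁻¹))
    (fun b hb => by
      have := mul_mem ha (hB b hb)
      rwa [mul_assoc, conj_mul] at this) fun b _ => by
      have h : Function.Semiconj (a * ·) (fun b => a⁻¹ * (g * (a * b) * g⁻¹))
        fun y => g * y * g⁻¹ := fun b => mul_inv_cancel_left _ _
      have := h.iterate_right 23 b
      rwa [conj_iter hg, mul_right_inj] at this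
  exact ⟨b, hb, inv_mul_eq_iff_eq_mul.1 e⟩

theorem fix_small {q : HQ} (h : σ • cl q = cl q) : ∃ a b : ZMod 2, q = ⟨a • e11, b • e11, q.e⟩ := by
  have k : ∀ a b : ZMod 2, cl q = pr (a • e11) (b • e11) → ∃ a b : ZMod 2,
      q = ⟨a • e11, b • e11, q.e⟩ := fun a b e =>
    ⟨a, b, HQ.ext (congrArg Prod.fst e) (congrArg Prod.snd e) rfl⟩
  rcases fix_σ h with e | e | e | e
  · exact k 0 0 (by rw [e, zero_smul]; rfl)
  · exact k 0 1 (by rw [e, zero_smul, one_smul, ψ_e8])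
  · exact k 1 0 (by rw [e, zero_smul, one_smul, ψ_v3])
  · exact k 1 1 (by rw [e, one_smul, ψ_u5])

theorem mono_fix {g : Co0} : g ∈ monoSub ↔ g • pr 0 e11 = pr 0 e11 := by
  rw [← ψ_e8, smul_ψ, ψ_eq_iff, LES.mem_monoSub_iff_congr]

namespace Dat

variable {J : Ct →* G} {N : Subgroup G} {Θ : G → S3 × M24} {t : S3} {x : Ct}
  (d : Dat J N Θ t x)
include d

theorem inj' {q r : HQ} (h : J (qT q) = J (qT r)) : q = r := d.inj h

theorem mono_of {y : Ct} (h : J y ∈ N) : fs y ∈ monoSub := d.lift_N ▸ ⟨y, h, rfl⟩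

theorem Q_le (q : HQ) : J (qT q) ∈ N := by
  refine (d.Q_le_or fun n hn m hm => mul_mem (mul_mem hn hm) (inv_mem hn)).elim (· q) fun h => ?_
  obtain ⟨r, r1, r2, r3, r4⟩ := d.exists_u
  have hr := h r r1 r3
  refine (d.not_cent r1 r2 fun k hk => ?_).elim
  by_contra hc
  have k1 : ∀ k ∈ d.K, J (qT r) * k ≠ k * J (qT r) → k * J (qT r) * k⁻¹ = J (qT (r * zq)) :=
    fun k hk hc => by
      obtain ⟨y, rfl⟩ := d.K_le hk
      have : cl (cj (mkC y) r) = cl r := by
        rw [cl_cj]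
        rcases hr with e | e <;> rw [e]
        · exact smul_zero _
        · exact mono_fix.1 (d.mono_of hk.1)
      rw [conjQ]
      rcases eq_of_cl this with e | e
      · exact absurd (mul_inv_eq_iff_eq_mul.1 ((conjQ J y r).trans (by rw [e]))).symm hc
      · rw [e]
  have k2 : ∀ k, J x * k * (J x)⁻¹ * J (qT r) = J (qT r) * (J x * k * (J x)⁻¹) ↔
      k * J (qT r) = J (qT r) * k := fun k => by
    conv_lhs => rw [← r4, conj_mul, conj_mul, mul_left_inj, mul_right_inj]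
  have := d.finite (M := d.K ⊓ centralizer {J (qT r)}) fun _ h => h.1.1
  obtain ⟨b, hb, e⟩ := exists_fix_coset d.g23 (B := d.K ⊓ centralizer {J (qT r)})
    (d.K_two.to_inf_left) (fun b hb => ⟨d.K_conj d.x3 hb.1, mem_centralizer_singleton_iff.2
      ((k2 b).2 (mem_centralizer_singleton_iff.1 hb.2))⟩) (a := k)
    ⟨d.K.mul_mem (inv_mem hk) (d.K_conj d.x3 hk), mem_centralizer_singleton_iff.2 (by
      have a := k1 _ (d.K_conj d.x3 hk) fun e => hc ((k2 k).1 e.symm).symm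
      rw [← k1 k hk hc] at a
      generalize J x * k * (J x)⁻¹ = k' at a
      calc _ = k⁻¹ * (k' * J (qT r) * k'⁻¹) * k' := by group
        _ = _ := by rw [a]; group)⟩
  have hk' := mul_mem hk hb.1
  obtain ⟨n, hn⟩ := d.two _ hk'.1 hk'.2
  obtain ⟨q, hq, e'⟩ := d.exists_q (d.K_le hk') hn e
  have a : q * r = r * q := comm_of_B (by
    rcases h q (hq ▸ hk'.1) e' with a | a <;> rcases hr with b | b <;> rw [a, b] <;> decide)
  have b := congrArg (fun q => J (qT q)) a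
  simp only [map_mul, hq] at b
  rw [mul_assoc, mem_centralizer_singleton_iff.1 hb.2, ← mul_assoc, ← mul_assoc, mul_left_inj] at b
  exact hc b.symm

theorem mem_N {y : Ct} (h : fs y ∈ monoSub) : J y ∈ N := by
  rw [← d.lift_N] at h
  obtain ⟨y', h1, h2⟩ := h
  obtain ⟨q, hq⟩ := (d.ker (y'⁻¹ * y)).2 (by rw [map_mul, map_inv, h2]; simp [one_mem])
  have := N.mul_mem h1 (d.Q_le q)
  rwa [show J (qT q) = _ from hq, ← map_mul, mul_inv_cancel_left] at this

theorem mem_N' (y : Ct) (h : y * qT S0 = qT S0 * y) : J y ∈ N := by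
  refine d.mem_N (mono_fix.2 ?_)
  have : cj (mkC y) S0 = S0 := UA.qT_injective (by rw [UA.qT_cj, h, mul_inv_cancel_right])
  exact (cl_cj y S0).symm.trans (congrArg cl this)

theorem fst_Q (q : HQ) : (Θ (J (qT q))).1 = 1 ∨ (Θ (J (qT q))).1 = t :=
  (d.memC _ (d.Q_le q)).1 ⟨_, rfl⟩

theorem z_mem : J (qT zq) ∈ d.K := by
  refine ⟨d.Q_le _, Prod.ext ?_ (d.snd_Q (d.Q_le _))⟩
  rw [show zq = XOM * D0 * XOM⁻¹ * D0⁻¹ by ext1 <;> decide, map_mul, map_mul, map_mul, map_mul, map_mul,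
    map_mul, map_inv, map_inv, map_inv, map_inv, d.mul _ (mul_mem (mul_mem (d.Q_le _) (d.Q_le _))
      (inv_mem (d.Q_le _))) _ (inv_mem (d.Q_le _)), d.conj (d.Q_le _) (d.Q_le _), d.inv (d.Q_le _)]
  rcases d.fst_Q XOM with a | a <;> rcases d.fst_Q D0 with b | b <;> simp [a, b]

theorem mul_mem_K {q r : HQ} (h : J (qT q) ∉ d.K) (h' : J (qT r) ∉ d.K) : J (qT (q * r)) ∈ d.K := by
  have k : ∀ q, J (qT q) ∉ d.K → (Θ (J (qT q))).1 = t := fun q h => (d.fst_Q q).resolve_left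
    fun e => h ⟨d.Q_le q, Prod.ext e (d.snd_Q (d.Q_le _))⟩
  refine ⟨d.Q_le _, Prod.ext ?_ (d.snd_Q (d.Q_le _))⟩
  rw [map_mul, map_mul, d.mul _ (d.Q_le _) _ (d.Q_le _), Prod.fst_mul, k q h, k r h', d.t2]; rfl

theorem cl_of_comm {y : Ct} {q : HQ}
    (h : J y * J (qT q) * (J y)⁻¹ * (J (qT q))⁻¹ ∈ zpowers (J (qT zq))) :
    cl (cj (mkC y) q) = cl q := by
  rw [conjQ, TT.mem_zpowers_invol (by rw [← map_mul, ← map_mul]; simp [show zq * zq = 1 by decide]),
    mul_inv_eq_one, mul_inv_eq_iff_eq_mul, ← map_mul, ← map_mul] at h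
  rcases h with e | e <;> rw [d.inj' e]
  exact (cl_mul _ _).trans (zero_add _)

omit d in
theorem comm_Q (q r : HQ) :
    J (qT q) * J (qT r) * (J (qT q))⁻¹ * (J (qT r))⁻¹ ∈ zpowers (J (qT zq)) := by
  have : q * r * q⁻¹ * r⁻¹ = 1 ∨ q * r * q⁻¹ * r⁻¹ = zq := by
    rw [← cj_qC, cj_qC']
    rcases Spor.zmod2_cases (comm q r) with e | e <;> rw [e] <;> [left; right] <;> ext1 <;>
      simp [zq, add_assoc, add_left_comm, GD.add_self]
    rw [← add_assoc, GD.add_self, zero_add]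
  simp only [← map_inv, ← map_mul]
  rcases this with e | e <;> rw [e]
  · simp
  · exact mem_zpowers _

theorem not_central : ¬ ∀ n ∈ N, n * J (qT zq) = J (qT zq) * n := fun hz => by
  have hz' : ∀ n ∈ N, ∀ w ∈ zpowers (J (qT zq)), n * w * n⁻¹ = w := by
    rintro n hn _ ⟨k, rfl⟩
    exact mul_inv_eq_iff_eq_mul.2 (Commute.zpow_right (hz n hn) k)
  obtain ⟨r, r1, r2, -⟩ := d.exists_u
  obtain ⟨τ, t1, t2, t3⟩ := d.exists_comm (finRotate 3)
  let D := d.K ⊓ (J.comp qT).range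
  have fD := d.finite (M := D) fun _ h => h.1.1
  have hD : ∀ y, J y ∈ N → ∀ m ∈ D, J y * m * (J y)⁻¹ ∈ D := by
    rintro y hy _ ⟨h, q, rfl⟩
    exact ⟨d.K_conj hy h, _, (conjQ J y q).symm⟩
  have k2 : ∀ n ∈ N, (Θ n).2 = 1 → n ∈ J.range → ∃ k, n ^ 2 ^ k = 1 := fun n hn e hC => by
    obtain ⟨k, hk⟩ := d.two (n ^ 2) (pow_mem hn 2) (by
      rw [d.pow hn]
      refine Prod.ext ?_ (by simp [e])
      rcases (d.memC n hn).1 hC with a | a <;> simp [a, pow_two, d.t2])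
    exact ⟨k + 1, by rw [pow_succ', pow_mul, hk]⟩
  by_cases hc : ∀ m ∈ D, τ * m * τ⁻¹ ∈ (J.comp qT).range
  · have hN : ∀ n ∈ N, ∀ m ∈ D, n * m * n⁻¹ ∈ D := fun n hn m => (mem_normalizer_iff.1
      (d.mem_of_max (H := normalizer (D : Set G)) (by
        rintro _ hy ⟨y, rfl⟩; exact mem_normalizer_fintype (hD y hy)) t1
        (mem_normalizer_fintype fun m hm => ⟨d.K_conj t1 hm.1, hc m hm⟩) (fun e => by
          have := (d.memC τ t1).1 e
          rw [t2] at this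
          exact (by decide : ∀ t : S3, t * t = 1 → ¬ (finRotate 3 = 1 ∨ finRotate 3 = t)) t d.t2
            this) hn) m).1
    let Y : Subgroup G :=
      { carrier := {n | n ∈ N ∧ (Θ n).2 = 1 ∧ ∀ m ∈ D, n * m * n⁻¹ * m⁻¹ ∈ zpowers (J (qT zq))}
        one_mem' := ⟨one_mem _, by simp [d.one], fun m _ => by simp⟩
        mul_mem' := fun {a b} ha hb => ⟨mul_mem ha.1 hb.1, by
          rw [d.mul _ ha.1 _ hb.1, Prod.snd_mul, ha.2.1, hb.2.1, one_mul], fun m hm => by
            have := mul_mem (hz' a ha.1 _ (hb.2.2 m hm) ▸ hb.2.2 m hm :) (ha.2.2 m hm)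
            convert this using 1; group⟩
        inv_mem' := fun {a} ha => ⟨inv_mem ha.1, by simp [d.inv ha.1, ha.2.1], fun m hm => by
          have := inv_mem (hz' _ (inv_mem ha.1) _ (ha.2.2 m hm) ▸ ha.2.2 m hm :)
          convert this using 1; group⟩ }
    have hY : ∀ n ∈ N, ∀ m ∈ Y, n * m * n⁻¹ ∈ Y := fun n hn a ha =>
      ⟨mul_mem (mul_mem hn ha.1) (inv_mem hn), by simp [d.conj hn ha.1, ha.2.1], fun m hm => by
        have b := ha.2.2 _ (hN _ (inv_mem hn) m hm)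
        have := (hz' n hn _ b ▸ b :)
        convert this using 1; group⟩
    by_cases h : ∀ m ∈ Y, m ∈ J.range → m ∈ (J.comp qT).range
    · exact d.false_of_u (M := Y) (fun _ h => h.1) hY h (u := J (qT r)) ⟨r1, by rw [r2], by
        rintro _ ⟨-, q, rfl⟩; exact comm_Q r q⟩ (by rw [r2])
    · push Not at h
      obtain ⟨m, m1, m2, m3⟩ := h
      have h : ∀ q, J (qT q) ∈ d.K → q.a 0 = 0 ∧ q.a 1 = 0 := fun q hq => by
        obtain ⟨a, b, e⟩ := fix_small (d.fix_or (M := Y) (fun n hn => k2 n hn.1 hn.2.1) (hY _ d.x3)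
          m1 m2 m3 fun y hy => d.cl_of_comm (hy.2.2 _ ⟨hq, q, rfl⟩))
        rw [e]; simp [e11]
      simpa using h _ (d.mul_mem_K (q := ⟨Pi.single 0 1, 0, 0⟩) (r := ⟨Pi.single 1 1, 0, 0⟩)
        (fun e => by simpa using h _ e) fun e => by simpa using h _ e)
  · push Not at hc
    obtain ⟨m, m1, m2⟩ := hc
    let D' := D.map (MulAut.conj τ).toMonoidHom
    have a1 : D' ≤ d.K := by rintro _ ⟨m, hm, rfl⟩; exact d.K_conj t1 hm.1
    have a2 : ((J.comp qT).range ⊓ D' : Subgroup G) ≤ Set.range fun p : ZMod 2 × ZMod 2 × ZMod 2 =>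
        J (qT ⟨p.1 • e11, p.2.1 • e11, p.2.2⟩) := by
      rintro _ ⟨⟨q, rfl⟩, n, hn, e⟩
      obtain ⟨a, b, e⟩ := fix_small (q := q) (d.fix_or (M := D')
        (fun n hn _ => d.two n (a1 hn).1 (a1 hn).2) (by
          rintro _ ⟨n, hn, rfl⟩
          refine ⟨_, hD x d.x3 n hn, ?_⟩
          show τ * (J x * n * (J x)⁻¹) * τ⁻¹ = J x * (τ * n * τ⁻¹) * (J x)⁻¹
          conv_lhs => rw [← t3]
          group)
        ⟨m, m1, rfl⟩ (d.K_le (d.K_conj t1 m1.1)) m2 fun y hy => d.cl_of_comm (by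
          obtain ⟨_, ⟨-, r, rfl⟩, e'⟩ := hy
          obtain ⟨-, r', rfl⟩ := hn
          have := (hz' τ t1 _ (comm_Q r r') ▸ comm_Q r r' :)
          rw [← e', ← show _ = J (qT q) from e]
          convert this using 1
          simp only [MulEquiv.coe_toMonoidHom, MulAut.conj_apply, MonoidHom.comp_apply]; group))
      exact ⟨⟨a, b, q.e⟩, congrArg (fun q => J (qT q)) e.symm⟩
    have a3 := (Nat.card_mono (Set.finite_range _) a2).trans (Finite.card_range_le _)
    have a4 := Grp.card_inf_mul_relIndex' (J.comp qT).range D'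
    have fK := d.finite (M := d.K) fun _ h => h.1
    have a5 : (J.comp qT).range.relIndex D' ≤ (J.comp qT).range.relIndex d.K :=
      relIndex_le_of_le_right a1 FiniteIndex.index_ne_zero
    have a6 : (J.comp qT).range.relIndex d.K ≤ 2 ^ 12 := by
      rw [← map_comap_eq_self d.K_le, ← relIndex_comap, show (J.comp qT).range.comap J =
        (center Co0).comap fs from Subgroup.ext d.ker, relIndex_comap,
        ← card_two (d.x1 ▸ lift_conj fun _ => d.K_conj d.x3)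
          (d.lift_two (M := d.K) fun m hm _ => d.two m hm.1 hm.2) (d.center_le _) fun e =>
          d.not_K_le fun k hk => by obtain ⟨y, rfl⟩ := d.K_le hk; exact (d.ker y).2 (e ⟨y, hk, rfl⟩)]
      exact Nat.le_of_dvd Nat.card_pos (relIndex_dvd_card _ _)
    have a7 := TT.card_le_two_mul_of_mul_mem (B := D) inf_le_right (by
      rintro _ ⟨q, rfl⟩ _ ⟨r, rfl⟩ a b
      rw [← map_mul]
      exact ⟨d.mul_mem_K (fun e => a ⟨e, q, rfl⟩) fun e => b ⟨e, r, rfl⟩, _, rfl⟩)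
    rw [← Nat.card_congr (MonoidHom.ofInjective d.inj).toEquiv, card_HQ,
      ← card_map_of_injective (f := (MulAut.conj τ).toMonoidHom) (MulAut.conj τ).injective] at a7
    have := Nat.mul_le_mul a3 (a5.trans a6)
    rw [SetLike.coe_sort_coe, a4] at this
    simp only [Nat.card_prod, Nat.card_zmod] at this
    exact absurd (a7.trans (Nat.mul_le_mul_left 2 this)) (by norm_num)

theorem mem_C (n : G) (hn : n ∈ N) (h : n * J (qT zq) = J (qT zq) * n) : n ∈ J.range := by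
  by_contra hc
  exact d.not_central fun m hm => mem_centralizer_singleton_iff.1 (d.mem_of_max
    (H := centralizer {J (qT zq)}) (by
      rintro _ - ⟨y, rfl⟩; exact mem_centralizer_singleton_iff.2 (comm_z J y)) hn
    (mem_centralizer_singleton_iff.2 h) hc hm)

theorem exists_g : ∃ g ∈ N, g * J (qT zq) * g⁻¹ = J (qT S0) := by
  obtain ⟨r, r1, r2, -⟩ := d.exists_u
  obtain ⟨τ, t1, t2, t3⟩ := d.exists_comm (finRotate 3)
  have hs := d.K_conj t1 d.z_mem
  obtain ⟨n, hn⟩ := d.two _ hs.1 hs.2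
  obtain ⟨q, hq, e⟩ := d.exists_q (d.K_le hs) hn (by
    conv_rhs => rw [← t3, ← mul_inv_eq_iff_eq_mul.2 (comm_z J x)]
    group)
  rcases (d.Q_le_or fun _ hn _ => d.K_conj hn).resolve_left (fun h => d.t1
    (congrArg Prod.fst (r2.symm.trans (h r).2))) q (hq ▸ hs) e with a | a
  · rcases eq_of_cl (r := 1) a with rfl | rfl
    · rw [map_one, map_one, eq_mul_inv_iff_mul_eq, one_mul, left_eq_mul, ← map_one J,
        ← map_one qT] at hq
      exact absurd (d.inj' hq) (by decide)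
    · rw [one_mul, eq_mul_inv_iff_mul_eq] at hq
      have := (d.memC τ t1).1 (d.mem_C τ t1 hq.symm)
      rw [t2] at this
      exact ((by decide : ∀ t : S3, t * t = 1 → ¬ (finRotate 3 = 1 ∨ finRotate 3 = t)) t d.t2
        this).elim
  · rcases eq_of_cl (r := S0) a with rfl | rfl
    · exact ⟨τ, t1, hq.symm⟩
    · refine ⟨J (qT D0) * τ, mul_mem (d.Q_le _) t1, ?_⟩
      rw [← show D0 * (S0 * zq) * D0⁻¹ = S0 by ext1 <;> decide, map_mul, map_mul, map_mul, map_mul, hq,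
        map_inv, map_inv]
      group

end Dat

end Cfsg.Agent.MonU.Am
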