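import Cfsg.Agent.MonU.AmL3

/-! The normal eight-group of the third member of the amalgam. -/

set_option autoImplicit false

namespace Cfsg.Agent.MonU.Am

open Cfsg Subgroup Fr Br

variable {G : Type*} [Group G]

/-- The amalgam of `C` and `N` in coordinates. -/
structure AD (Cc Nn : Subgroup G) (ι : C →* G) (τ : G) : Prop where
  inj : Function.Injective ι
  range : ι.range = Cc
  hz : ∀ n ∈ Nn, n * ι (qC zq) = ι (qC zq) * n → n ∈ Cc
  hN : ∀ c, ι c ∈ Nn ↔ c ∈ Nx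
  hτ : τ ∈ Nn
  am : Amal0 ⊤ ι τ
  h3 : Cc.relIndex Nn = 3

theorem conj_ι (ι : C →* G) (c : C) (q : HQ) : ι c * ι (qC q) * (ι c)⁻¹ = ι (qC (cj c q)) := by
  rw [qC_cj, map_mul, map_mul, map_inv]

/-- The conjugates of an element under a subgroup. -/
def cls' (L : Subgroup G) (z : G) : Set G := {y | ∃ e ∈ L, e * z * e⁻¹ = y}

theorem cls'_conj {L : Subgroup G} {z l x : G} (hl : l ∈ L) (h : x ∈ cls' L z) :
    l * x * l⁻¹ ∈ cls' L z := by
  obtain ⟨e, he, rfl⟩ := h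
  exact ⟨l * e, mul_mem hl he, by group⟩

namespace AD

variable {Cc Nn L : Subgroup G} {ι : C →* G} {τ : G} {α : L →* SL32} (a : AD Cc Nn ι τ)
include a

theorem conj {k : C} (hk : k ∈ Nx) :
    AD Cc Nn (ι.comp (MulAut.conj k⁻¹).toMonoidHom) ((ι k)⁻¹ * τ * ι k) := by
  have e : ∀ c, ι.comp (MulAut.conj k⁻¹).toMonoidHom c = (ι k)⁻¹ * ι c * ι k := fun c => by simp
  have hk' := (a.hN k).2 hk
  refine ⟨a.inj.comp (MulAut.conj k⁻¹).injective, ?_, fun n hn h => a.hz n hn ?_, fun c => ?_,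
    mul_mem (mul_mem (inv_mem hk') a.hτ) hk', ⟨fun x _ y _ => map_mul _ x y, fun n m h _ _ => ?_,
    ?_, ?_⟩, a.h3⟩
  · rw [MonoidHom.range_comp, MonoidHom.range_eq_top.2 (MulAut.conj k⁻¹).surjective,
      ← MonoidHom.range_eq_map, a.range]
  · rwa [e, mul_assoc _ (ι _), ← map_mul, ← zq_central, map_mul, inv_mul_cancel_left] at h
  · rw [e, Nn.mul_mem_cancel_right hk', Nn.mul_mem_cancel_left (inv_mem hk'), a.hN]
  · rw [e, e, ← a.am.beta n m h trivial trivial]; group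
  · calc _ = (ι k)⁻¹ * (τ * τ * τ) * ι k := by group
      _ = 1 := by rw [a.am.cube]; group
  · calc _ = (ι k)⁻¹ * (ι (qC D0) * τ * ι (qC D0) * τ) * ι k := by rw [e]; group
      _ = 1 := by rw [a.am.inv]; group

theorem comm {c : G} (h : c ∈ Cc) : c * ι (qC zq) = ι (qC zq) * c := by
  obtain ⟨c, rfl⟩ := a.range.ge h
  rw [← map_mul, zq_central, map_mul]

theorem mem (c : C) : ι c ∈ Cc := a.range.le ⟨c, rfl⟩

theorem inj' {q r : HQ} (h : ι (qC q) = ι (qC r)) : q = r := qC_injective (a.inj h)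

theorem idx {H : Subgroup G} (h : ∀ l ∈ H, l * ι (qC zq) = ι (qC zq) * l → l ∈ Cc) :
    (cls' H (ι (qC zq))).ncard = Cc.relIndex H := by
  rw [cls', ← LES.relIndex_cent_eq_ncard, relIndex, relIndex]
  congr 1
  ext l
  exact mem_centralizer_singleton_iff.trans ⟨h l l.2, a.comm⟩

variable (d : LD Cc Nn L α)
include d

theorem hzL : ∀ l ∈ L, l * ι (qC zq) = ι (qC zq) * l → l ∈ Cc := fun l hl h =>
  ((d.le_of (H := centralizer {ι (qC zq)}) fun _ _ h =>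
    mem_centralizer_singleton_iff.2 (a.comm h)).resolve_right fun e => d.not_le fun l b c =>
      a.hz l c (mem_centralizer_singleton_iff.1 (e b))) l hl (mem_centralizer_singleton_iff.2 h)

theorem split {n : G} (hn : n ∈ Nn) : ∃ l ∈ L, l ∈ Nn ∧ l⁻¹ * n ∈ Cc := by
  have h1 := (a.idx a.hz).trans a.h3
  have h2 := a.idx (H := Nn ⊓ L) fun l hl => a.hz l hl.1
  have h3 := relIndex_inf_mul_relIndex Cc Nn L
  rw [d.hN, inf_comm Cc, d.hNC] at h3
  obtain ⟨l, hl, e⟩ := (Set.eq_of_subset_of_ncard_le (s := cls' (Nn ⊓ L) (ι (qC zq)))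
    (t := cls' Nn (ι (qC zq))) (fun _ ⟨e, he, h⟩ => ⟨e, he.1, h⟩) (by omega)
    (Set.finite_of_ncard_ne_zero (by omega))).ge ⟨n, hn, rfl⟩
  refine ⟨l, hl.2, hl.1, a.hz _ (mul_mem (inv_mem hl.1) hn) ?_⟩
  calc _ = l⁻¹ * (n * ι (qC zq) * n⁻¹) * n := by group
    _ = _ := by rw [← e]; group

theorem mem_X (e : ZMod 2) : ι (qC ⟨0, e11, e⟩) ∈ cls' L (ι (qC zq)) := by
  have k : ∀ n ∈ Nn, n * ι (qC zq) * n⁻¹ ∈ cls' L (ι (qC zq)) := fun n hn => by
    obtain ⟨l, h1, -, h2⟩ := a.split d hn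
    refine ⟨l, h1, ?_⟩
    calc _ = l * (ι (qC zq) * (l⁻¹ * n)) * n⁻¹ := by group
      _ = _ := by rw [← a.comm h2]; group
  rcases Spor.zmod2_cases e with rfl | rfl
  · have := k _ (inv_mem a.hτ)
    rwa [inv_inv, a.am.beta _ _ .z trivial trivial] at this
  · have := k _ a.hτ
    rwa [show τ * ι (qC zq) * τ⁻¹ = ι (qC S0) by
      rw [← a.am.beta _ _ .s trivial trivial]; group] at this

theorem card_X : (cls' L (ι (qC zq))).ncard = 7 := (a.idx (a.hzL d)).trans d.hC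

theorem X_eq {x : G} (hx : x ∈ cls' L (ι (qC zq))) (hz : x ≠ ι (qC zq)) :
    ∃ c e, ι c ∈ L ∧ x = ι (qC (cj c ⟨0, e11, e⟩)) := by
  have h3 := relIndex_inf_mul_relIndex Nn Cc L
  rw [d.hC, d.hNC] at h3
  let F : (↥(Cc ⊓ L) ⧸ Nn.subgroupOf (Cc ⊓ L)) × ZMod 2 → G :=
    fun p => p.1.out * ι (qC ⟨0, e11, p.2⟩) * (p.1.out : G)⁻¹
  have h1 : Function.Injective F := by
    rintro ⟨p, e⟩ ⟨p', e'⟩ h
    obtain ⟨c, hc⟩ := a.range.ge (p'.out⁻¹ * p.out).2.1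
    have b : cj c ⟨0, e11, e⟩ = ⟨0, e11, e'⟩ := a.inj' (by
      rw [← conj_ι, hc]
      calc _ = (p'.out : G)⁻¹ * F (p, e) * p'.out := by simp [F, mul_assoc]
        _ = _ := by rw [h]; simp [F, mul_assoc])
    obtain rfl : p' = p := by
      rw [← p.out_eq, ← p'.out_eq]
      exact QuotientGroup.eq.2 (mem_subgroupOf.2 (hc ▸ (a.hN c).2 (mem_Nx_of b)))
    exact Prod.ext rfl (congrArg HQ.e (a.inj' (mul_left_cancel (mul_right_cancel h))))
  have h2 : Set.range F ⊆ cls' L (ι (qC zq)) \ {ι (qC zq)} := by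
    rintro _ ⟨⟨p, e⟩, rfl⟩
    refine ⟨cls'_conj p.out.2.2 (a.mem_X d e), fun h => ?_⟩
    rw [Set.mem_singleton_iff, mul_inv_eq_iff_eq_mul, ← a.comm p.out.2.1, mul_right_inj] at h
    exact absurd (congrArg HQ.b (a.inj' h)) (show e11 ≠ 0 by decide)
  have h4 := a.card_X d
  obtain ⟨⟨p, e⟩, rfl⟩ := (Set.eq_of_subset_of_ncard_le h2 (by
    rw [Set.ncard_sdiff_singleton_of_mem (s := cls' L _) ⟨1, one_mem _, by simp⟩, h4,
      ← Nat.card_coe_set_eq, Nat.card_range_of_injective h1, Nat.card_prod, Nat.card_zmod,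
      ← index, ← relIndex]
    omega) ((Set.finite_of_ncard_ne_zero (by omega)).sdiff)).ge ⟨hx, hz⟩
  obtain ⟨c, hc⟩ := a.range.ge p.out.2.1
  exact ⟨c, e, hc ▸ p.out.2.2, by rw [← conj_ι, hc]⟩

theorem X_Q {x : G} (hx : x ∈ cls' L (ι (qC zq))) : ∃ q, x = ι (qC q) := by
  by_cases h : x = ι (qC zq)
  · exact ⟨_, h⟩
  · obtain ⟨c, e, -, h⟩ := a.X_eq d hx h
    exact ⟨_, h⟩

omit a d in
theorem X_sq {x : G} (hx : x ∈ cls' L (ι (qC zq))) : x * x = 1 := by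
  obtain ⟨e, -, rfl⟩ := hx
  rw [conj_mul, ← map_mul, ← map_mul, zq_sq]; simp

/-- The normal eight-group. -/
def W : Subgroup G where
  carrier := insert 1 (cls' L (ι (qC zq)))
  one_mem' := Or.inl rfl
  mul_mem' := by
    rintro _ y (rfl | ⟨l, hl, rfl⟩) hy
    · rwa [one_mul]
    rcases hy with rfl | hy
    · exact Or.inr ⟨l, hl, (mul_one _).symm⟩
    have h1 := cls'_conj (inv_mem hl) hy
    by_cases h : l⁻¹ * y * l⁻¹⁻¹ = ι (qC zq)
    · left
      rw [show y = l * ι (qC zq) * l⁻¹ by rw [← h]; group]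
      exact X_sq ⟨l, hl, rfl⟩
    · obtain ⟨c, e, h2, h3⟩ := a.X_eq d h1 h
      have := cls'_conj hl (cls'_conj h2 (a.mem_X d (1 + e)))
      rw [show (⟨0, e11, 1 + e⟩ : HQ) = zq * ⟨0, e11, e⟩ by ext1 <;> simp [zq], conj_ι, cj_map_mul,
        cj_zq, map_mul, map_mul, ← h3] at this
      right
      convert this using 1
      group
  inv_mem' := by
    rintro x (rfl | hx)
    · exact Or.inl inv_one
    · rw [inv_eq_of_mul_eq_one_left (X_sq hx)]; exact Or.inr hx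

theorem card_W : Nat.card (a.W d) = 8 := by
  have h := a.card_X d
  refine (Set.ncard_insert_of_notMem ?_ (Set.finite_of_ncard_ne_zero (by omega))).trans (by rw [h])
  rintro ⟨e, -, h⟩
  rw [mul_inv_eq_one, mul_eq_left, ← map_one ι, ← map_one qC] at h
  exact absurd (a.inj' h) (by decide)

theorem W_sq : ∀ x ∈ a.W d, x * x = 1 := by
  rintro x (rfl | hx)
  exacts [one_mul _, X_sq hx]

theorem norm_W : L ≤ normalizer (a.W d : Set G) := fun l hl => by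
  have : Finite (a.W d) := Nat.finite_of_card_ne_zero (by rw [a.card_W d]; decide)
  refine mem_normalizer_fintype ?_
  rintro x (rfl | hx)
  · exact Or.inl (by simp)
  · exact Or.inr (cls'_conj hl hx)

theorem a_eq {q : HQ} (h : ι (qC q) ∈ cls' L (ι (qC zq))) : q.a = 0 := by
  obtain ⟨l, h1, -, h2⟩ := a.split d a.hτ
  obtain ⟨c, hc⟩ := a.range.ge (inv_mem h2)
  obtain ⟨r, hr⟩ := a.X_Q d (cls'_conj (inv_mem h1) h)
  have b1 : τ⁻¹ * ι (qC q) * τ = ι (qC (cj c r)) := by rw [← conj_ι, ← hr, hc]; group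
  generalize cj c r = r' at b1
  refine eq_of_dot fun b => ?_
  have b2 := a.am.beta _ _ (beta_E ⟨0, b, 0⟩ rfl) trivial trivial
  have b3 := a.am.beta _ _ .z trivial trivial
  by_contra hc
  have b4 : cj (qC q) ⟨0, b, 0⟩ = ⟨0, b, 0⟩ * zq := by
    rw [cj_qC']
    rcases Spor.zmod2_cases (q.a ⬝ᵥ b) with e | e
    · exact absurd (e.trans (zero_dotProduct b).symm) hc
    · ext1 <;> simp [zq, MonU.comm, dotProduct_comm b, e]
  have b5 : cj (qC r') (bE ⟨0, b, 0⟩) = bE ⟨0, b, 0⟩ * XOM := a.inj' (by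
    rw [← conj_ι, map_mul, map_mul, ← b1, ← b2, ← b3]
    calc _ = τ⁻¹ * (ι (qC q) * ι (qC ⟨0, b, 0⟩) * (ι (qC q))⁻¹) * τ := by group
      _ = _ := by rw [conj_ι, b4, map_mul, map_mul]; group)
  rw [cj_qC'] at b5
  simpa [XOM] using congrFun (congrArg HQ.b b5) 11

theorem amal (hW : W8.map (ι.comp qC) = a.W d) : Amal ⊤ ι τ := by
  have : Finite (a.W d) := Nat.finite_of_card_ne_zero (by rw [a.card_W d]; decide)
  have hz : ι (qC zq) ∈ a.W d := Or.inr ⟨1, one_mem _, by simp⟩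
  have hs : ι (qC S0) ∈ a.W d := Or.inr (a.mem_X d 1)
  let D := Cc ⊓ centralizer (a.W d : Set G)
  have k0 : ∀ l ∈ L, ∀ x ∈ centralizer (a.W d : Set G), l * x * l⁻¹ ∈ centralizer (a.W d : Set G) :=
    fun l hl x hx w hw => by
      have := hx _ ((mem_normalizer_iff.1 (a.norm_W d (inv_mem hl)) w).1 hw)
      calc _ = l * (l⁻¹ * w * l⁻¹⁻¹ * x) * l⁻¹ := by group
        _ = _ := by rw [this]; group
  have k1 : ∀ H : Subgroup G, (∀ l ∈ H, ∀ x ∈ D, l * x * l⁻¹ ∈ Cc) → ∀ l ∈ L, l ∈ H →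
      l ∈ normalizer (D : Set G) := fun H h l hl hH => mem_normalizer_iff.2 fun x =>
    ⟨fun hx => ⟨h l hH x hx, k0 l hl x hx.2⟩, fun hx => by
      simpa [D, mul_assoc] using And.intro (h _ (inv_mem hH) _ hx) (k0 _ (inv_mem hl) _ hx.2)⟩
  have hD : L ≤ normalizer (D : Set G) := d.le_of' (k1 Cc fun l hl x hx =>
    mul_mem (mul_mem hl hx.1) (inv_mem hl)) fun l h1 h2 => k1 (L ⊓ Nn) (fun l hl x hx => by
      obtain ⟨c, rfl⟩ := a.range.ge hx.1
      have : ι c ∈ Nn := (a.hN c).2 ((mem_Nx_iff c).2 (Or.inl (a.inj' (by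
        rw [← conj_ι, ← hx.2 _ hs, mul_inv_cancel_right]))))
      exact a.hz _ (mul_mem (mul_mem hl.2 this) (inv_mem hl.2)) (k0 l hl.1 _ hx.2 _ hz).symm)
      l h1 ⟨h1, h2⟩
  have k2 : ∀ g ∈ Cc, g ∈ normalizer (a.W d : Set G) → g ∈ L ⊔ D := fun g h1 h2 => by
    obtain ⟨l, h3, h4⟩ := full_aut (fun x hx y hy => TT.comm_of_sq_eq_one (a.W_sq d) hx hy)
      (fun x hx => (pow_two x).trans (a.W_sq d x hx)) (a.card_W d) (a.norm_W d)
      (d.le_relIndex k0 fun l hl h => a.hzL d l hl (h _ hz).symm) h2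
    have h5 := h4 _ hz
    rw [mul_assoc l⁻¹, a.comm h1, ← mul_assoc, ← mul_assoc, mul_left_inj] at h5
    rw [← mul_inv_cancel_left l g]
    exact mul_mem (mem_sup_left h3)
      (mem_sup_right ⟨Cc.mul_mem (a.hzL d _ (inv_mem h3) h5.symm) h1, h4⟩)
  have k3 : ∀ u ∈ [[1148], bW, eW], ι (evW u) ∈ L ⊔ D := fun u hu => k2 _ (a.mem _)
    (mem_normalizer_fintype (by
      rw [← hW]; rintro _ ⟨q, hq, rfl⟩; exact ⟨_, cj_W8 hu hq, (conj_ι _ _ _).symm⟩))
  have k4 : τ ∈ L ⊔ D := by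
    obtain ⟨l, h1, -, h2⟩ := a.split d a.hτ
    rw [← mul_inv_cancel_left l τ]
    refine mul_mem (mem_sup_left h1) (k2 _ h2 (mul_mem (inv_mem (a.norm_W d h1))
      (inv_mem_iff.1 (mem_normalizer_fintype ?_))))
    rw [← hW]
    rintro _ ⟨q, hq, rfl⟩
    exact ⟨_, (bE_W8 hq).2, by
      rw [inv_inv]; exact (a.am.beta _ _ (beta_E q (bE_W8 hq).1) trivial trivial).symm⟩
  refine amal_of_mem a.inj a.am fun h => ?_
  have k5 := mul_mem (inv_mem (mul_mem (mul_mem (k3 bW (by simp)) k4) (k3 eW (by simp))))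
    (mul_mem (mul_mem k4 (k3 [1148] (by simp))) k4)
  rw [← SetLike.mem_coe, coe_mul_of_left_le_normalizer_right _ _ hD] at k5
  obtain ⟨l, hl, x, hx, e⟩ := k5
  change l * x = (ι brB * τ * ι brE)⁻¹ * (τ * ι xiC * τ) at e
  rw [← e] at h ⊢
  rw [a.range]
  refine mul_mem (a.hzL d l hl ?_) hx.1
  rw [Commute, SemiconjBy, mul_assoc, a.comm hx.1, ← mul_assoc, ← mul_assoc, mul_left_inj] at h
  exact h

theorem exists_amal : ∃ ι τ, AD Cc Nn ι τ ∧ Amal ⊤ ι τ := by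
  obtain ⟨p, p1, p2, p3⟩ : ∃ p ∈ L, p ∈ Cc ∧ p ∉ Nn := by
    by_contra! h
    have := d.hNC
    rw [relIndex, show (Nn ⊓ Cc).subgroupOf L = Cc.subgroupOf L from
      Subgroup.ext fun l => and_iff_right_of_imp (h l l.2), ← relIndex, d.hC] at this
    omega
  obtain ⟨c, rfl⟩ := a.range.ge p2
  have h1 := cls'_conj p1 (a.mem_X d 1)
  rw [conj_ι] at h1
  obtain ⟨k, hk, t, e, h2⟩ := exists_norm (a.a_eq d h1) (mt (a.hN c).2 p3)
  have a' := a.conj (mem_sup_left hk)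
  have : Finite (a'.W d) := Nat.finite_of_card_ne_zero (by rw [a'.card_W d]; decide)
  refine ⟨_, _, a', a'.amal d (eq_of_le_of_card_ge (map_le_iff_le_comap.2 (W8_le (t := t) (e := e)
    (Or.inr ⟨1, one_mem _, by simp⟩) (Or.inr (a'.mem_X d 0)) (Or.inr ?_))) ?_)⟩
  · have e : ∀ q, ι.comp (MulAut.conj k⁻¹).toMonoidHom (qC q) = ι (qC (cj k⁻¹ q)) := fun q => by
      rw [qC_cj]; rfl
    rwa [e, MonoidHom.comp_apply, e, cj_zq, cj_inv h2]
  · have : Finite HQ := Nat.finite_of_card_ne_zero (by rw [card_HQ]; positivity)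
    rw [a'.card_W d, card_map_of_injective fun _ _ => a'.inj']
    exact le_card_W8

end AD

end Cfsg.Agent.MonU.Am
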