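import Cfsg.Agent.MonU.AmB2
import Cfsg.Agent.MonU.AmL4
import Cfsg.Agent.MonL.Shape
import Cfsg.Agent.Comp.Tup
import Cfsg.Agent.Spor.SimpleQuot
import Cfsg.Agent.S0365
import Cfsg.Agent.Grp.Cores

/-! Coordinates for the three members of the amalgam. -/

set_option autoImplicit false

namespace Cfsg.Agent.MonU.Am

open Cfsg Cfsg.Spor Cfsg.Agent.Spor Subgroup

variable {G : Type*} [Group G]

/-- Coordinates for a subgroup of shape `2^(1+24).Co₁`. -/
structure JD (J : Ct →* G) (Cc : Subgroup G) : Prop where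
  range : J.range = Cc
  inj : Function.Injective (J.comp qT)
  ker : ∀ y, J y ∈ (J.comp qT).range ↔ fs y ∈ center Co0

theorem finite_of_relIndex {H K : Subgroup G} [Finite H] (h : H.relIndex K ≠ 0) : Finite K := by
  have : Finite (H ⊓ K : Subgroup G) := Finite.of_injective _ (inclusion_injective inf_le_left)
  exact Nat.finite_of_card_ne_zero
    (Grp.card_inf_mul_relIndex' H K ▸ mul_ne_zero Nat.card_pos.ne' h)

theorem exists_JD {Cc : Subgroup G} (hQ : IsExtraspecial 2 ((pCore 2 Cc).map Cc.subtype))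
    (hc : Nat.card ((pCore 2 Cc).map Cc.subtype) = 2 ^ 25)
    (hcc : Cc ⊓ centralizer (((pCore 2 Cc).map Cc.subtype) : Set G) ≤ (pCore 2 Cc).map Cc.subtype)
    (hCo : IsoCo1 (Cc ⧸ pCore 2 Cc)) : Finite Cc ∧ ∃ J, JD J Cc := by
  obtain ⟨e⟩ := hCo
  rw [LES.card_map_subtype] at hc
  have fC : Finite Cc := Nat.finite_of_card_ne_zero (by
    rw [← Grp.card_quotient_mul_card (pCore 2 Cc), hc, Nat.card_congr e.toEquiv, Leech.card_Co1]
    norm_num)
  obtain ⟨z, hz⟩ := TT.exists_XS_of_isExtraspecial hQ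
  have h1 := hz.top.map (inclusion (map_subtype_le _)) fun x _ h => inclusion_injective _
    (h.trans (map_one _).symm)
  rw [← MonoidHom.range_eq_map, inclusion_range, subgroupOf,
    comap_map_eq_self_of_injective Cc.subtype_injective] at h1
  obtain ⟨z, h1⟩ : ∃ z, TT.XS (pCore 2 Cc) z := ⟨_, h1⟩
  have hn : (pCore 2 Cc).Normal := inferInstance
  have h2 : ∀ c : Cc, c ∈ centralizer {z} := fun c => mem_centralizer_singleton_iff.2 (by
    refine mul_inv_eq_iff_eq_mul.1 ((h1.cent _ (hn.conj_mem _ h1.z_mem c) fun y hy => ?_).resolve_left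
      (by simpa using h1.z_ne))
    calc _ = c * (z * (c⁻¹ * y * c⁻¹⁻¹)) * c⁻¹ := by group
      _ = _ := by rw [← h1.z_comm _ (hn.conj_mem _ hy _)]; group)
  obtain ⟨φ, d⟩ := MonL.exists_monData_of_shape (Q := pCore 2 Cc)
    ⟨h1, fun c h => LES.coe_mem_map_subtype.1 (hcc ⟨c.2, by
      rintro _ ⟨x, hx, rfl⟩; exact congrArg Subtype.val (h x hx)⟩),
      fun c _ x hx => hn.conj_mem x hx c⟩ hc
    ((e.toMonoidHom.comp (QuotientGroup.mk' _)).comp (centralizer {z}).subtype)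
    ((e.surjective.comp (QuotientGroup.mk'_surjective _)).comp fun c => ⟨⟨c, h2 c⟩, rfl⟩)
    fun a => e.map_eq_one_iff.trans (QuotientGroup.eq_one_iff _)
  obtain ⟨J, j1, j2, j3, -, -, j6⟩ := exists_J d
  refine ⟨fC, Cc.subtype.comp J, ?_, Cc.subtype_injective.comp j2, fun y => ?_⟩
  · rw [MonoidHom.range_comp, j1, (eq_top_iff' _).2 h2, ← MonoidHom.range_eq_map, range_subtype]
  · rw [MonoidHom.comp_assoc, MonoidHom.range_comp, j3]
    exact LES.coe_mem_map_subtype.trans ((d.ker ⟨_, h2 _⟩).symm.trans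
      (by rw [j6]; exact QuotientGroup.eq_one_iff _))

theorem JD.conj {J : Ct →* G} {Cc : Subgroup G} (h : JD J Cc) (k : Ct) :
    JD (J.comp (MulAut.conj k).toMonoidHom) Cc := by
  have e : ∀ q, (J.comp (MulAut.conj k).toMonoidHom).comp qT q = J.comp qT (cj (mkC k) q) :=
    fun q => congrArg J (UA.qT_cj k q).symm
  refine ⟨?_, fun q r a => ?_, fun y => ?_⟩
  · rw [MonoidHom.range_comp, MonoidHom.range_eq_top.2 (MulAut.conj k).surjective,
      ← MonoidHom.range_eq_map, h.range]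
  · rw [e, e] at a
    rw [← Fr.cj_inv (h.inj a), Fr.cj_inv rfl]
  · have : ((J.comp (MulAut.conj k).toMonoidHom).comp qT).range = (J.comp qT).range :=
      Subgroup.ext fun g => ⟨fun ⟨q, a⟩ => ⟨_, (e q).symm.trans a⟩, fun ⟨q, a⟩ =>
        ⟨cj (mkC k)⁻¹ q, by rw [e, ← cj_mul, mul_inv_cancel, cj_one, a]⟩⟩
    rw [this]
    refine (h.ker (k * y * k⁻¹)).trans ?_
    rw [map_mul, map_mul, map_inv]
    exact ⟨fun a => by simpa [mul_assoc] using Normal.conj_mem inferInstance _ a (fs k)⁻¹,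
      fun a => Normal.conj_mem inferInstance _ a _⟩

theorem HQ_pow (q : HQ) : q ^ 2 ^ 2 = 1 := by
  rw [show 2 ^ 2 = 2 * 2 from rfl, pow_mul, pow_two, pow_two]; ext1 <;> simp [GD.add_self]

theorem JD.exists_x {J : Ct →* G} {Cc N : Subgroup G} (h : JD J Cc) {n : G} (h1 : n ∈ Cc)
    (h2 : n ∈ N) (h3 : orderOf n = 23) :
    ∃ (J : Ct →* G) (x : Ct), JD J Cc ∧ fs x = σ ∧ x ^ 23 = 1 ∧ J x ∈ N := by
  have := Leech.finite_Co0
  obtain ⟨y, rfl⟩ := h.range.ge h1
  have a1 : J y ^ 23 = 1 := orderOf_dvd_iff_pow_eq_one.1 h3.dvd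
  have a2 : (y ^ 2 ^ 2) ^ 23 = 1 := by
    rw [← pow_mul, mul_comm, pow_mul]
    obtain ⟨q, e | e⟩ := UA.exists_qT ((h.ker (y ^ 23)).1 (by rw [map_pow, a1]; exact one_mem _))
    · rw [e, ← map_pow, HQ_pow, map_one]
    · rw [e, Commute.mul_pow (negT_comm _), ← map_pow, HQ_pow, map_one, one_mul,
        show 2 ^ 2 = 2 * 2 from rfl, pow_mul, pow_two negT, Fr.negT_sq, one_pow]
  have a3 : orderOf (fs (y ^ 2 ^ 2)) = 23 := orderOf_eq_prime (by rw [← map_pow, a2, map_one])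
    fun e => by
      obtain ⟨q, hq⟩ := (h.ker _).2 (e ▸ one_mem _)
      have := congrArg (· ^ 2 ^ 2) hq
      simp only [← map_pow, HQ_pow, map_one] at this
      rw [map_pow, map_pow, ← pow_mul, eq_comm, ← orderOf_dvd_iff_pow_eq_one, h3] at this
      omega
  obtain ⟨g, j, -, -, e⟩ := Comp.exists_conj_pow fact23.out a3 (x := σ)
    ((orderOf_injective _ Leech.permHom_injective _).trans Leech.orderOf_t23)
    (by rw [Leech.card_Co0]; norm_num)
  obtain ⟨k, rfl⟩ : ∃ k, fs k = g := Ct_surj g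
  refine ⟨_, k⁻¹ * (y ^ 2 ^ 2) ^ j * k, h.conj k, ?_, ?_, ?_⟩
  · rw [map_mul, map_mul, map_inv, map_pow, ← e]; group
  · have := conj_pow (a := k⁻¹) (b := (y ^ 2 ^ 2) ^ j) (i := 23)
    rwa [inv_inv, pow_right_comm _ j, a2, one_pow, mul_one, inv_mul_cancel] at this
  · rw [show (J.comp (MulAut.conj k).toMonoidHom) (k⁻¹ * (y ^ 2 ^ 2) ^ j * k) =
      J ((y ^ 2 ^ 2) ^ j) from congrArg J (by rw [MulEquiv.coe_toMonoidHom, MulAut.conj_apply]; group),
      map_pow, map_pow]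
    exact pow_mem (pow_mem h2 _) j

theorem exists_t {D : Subgroup (S3 × M24)} (h : D.index = 3) :
    ∃ t : S3, t ≠ 1 ∧ t * t = 1 ∧ ∀ s, s ∈ D ↔ s.1 = 1 ∨ s.1 = t := by
  have := S0365.result
  have h1 : D.comap (MonoidHom.inr _ _) = ⊤ := by
    have a : (D.comap (MonoidHom.inr _ _)).index ≤ 3 := by
      rw [index_comap]
      exact (relIndex_le_of_le_right le_top (by rw [relIndex_top_right]; omega)).trans
        (D.relIndex_top_right.trans h).le
    have b := FiniteIndex.index_ne_zero (H := D.comap (MonoidHom.inr _ _))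
    rw [← index_eq_one]
    by_contra c
    have := NeZero.mk b
    obtain ⟨H, e, -⟩ := exists_perm_of_index (D.comap (MonoidHom.inr _ _)) _ (by omega) rfl
    have := (Nat.card_congr e.toEquiv).le.trans H.card_le_card_group
    rw [M24C.card_M24, Nat.card_perm, Nat.card_fin] at this
    exact absurd (this.trans (Nat.factorial_le a)) (by decide)
  have h2 : D = (D.comap (MonoidHom.inl _ _)).comap (MonoidHom.fst _ _) := Subgroup.ext fun s => by
    rw [← D.mul_mem_cancel_right (inv_mem (h1.ge (mem_top s.2)))]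
    exact iff_of_eq (congrArg (· ∈ D) (Prod.ext (by simp) (by simp)))
  have h3 := (D.comap (MonoidHom.inl _ _)).card_mul_index
  rw [← index_comap_of_surjective _ (f := MonoidHom.fst S3 M24) Prod.fst_surjective, ← h2, h,
    Nat.card_perm, Nat.card_fin] at h3
  obtain ⟨t, t1, t2⟩ := (Nat.card_eq_two_iff' (1 : D.comap (MonoidHom.inl _ _))).1 (by
    simp only [Nat.factorial] at h3; omega)
  refine ⟨t, fun e => t1 (Subtype.ext e), ?_, fun s => ?_⟩
  · by_contra e
    exact t1 (mul_eq_left.1 (t2 (t * t) fun a => e (congrArg Subtype.val a)))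
  · refine (SetLike.ext_iff.1 h2 s).trans ⟨fun a => or_iff_not_imp_left.2 fun b => congrArg Subtype.val
      (t2 ⟨_, a⟩ fun c => b (congrArg Subtype.val c)), ?_⟩
    rintro (a | a) <;> rw [mem_comap, MonoidHom.coe_fst, a]
    exacts [one_mem _, t.2]

theorem exists_LD {Cc N L : Subgroup G} [Finite L] {A B : Subgroup (L ⧸ pCore 2 L)} [A.Normal]
    [B.Normal] (h1 : A ⊓ B = ⊥) (h2 : A ⊔ B = ⊤) (e : A ≃* SL32) (hB : Nat.card B = 2160)
    (hN : N.relIndex L = 7) (hC : Cc.relIndex L = 7) (hNC : (N ⊓ Cc).relIndex L = 21) :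
    ∃ α, LD Cc N L α := by
  let f := (Grp.isComplement'_of_sup_eq_top h1 h2).QuotientMulEquiv.trans e
  obtain ⟨a, ha⟩ := (Grp.pCore_isPGroup 2 L).exists_card_eq
  refine ⟨(f.toMonoidHom.comp (QuotientGroup.mk' B)).comp (QuotientGroup.mk' _), inferInstance,
    (f.surjective.comp (QuotientGroup.mk'_surjective _)).comp (QuotientGroup.mk'_surjective _),
    ⟨a, ?_⟩, hN, hC, hNC⟩
  rw [← MonoidHom.comap_ker, MonoidHom.ker_comp_of_injective _ _ f.injective, QuotientGroup.ker_mk',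
    Grp.card_comap_of_surjective _ (QuotientGroup.mk'_surjective _), QuotientGroup.ker_mk', ha, hB,
    mul_comm]

theorem exists_dat {Cc N L : Subgroup G} [Finite Cc] {J : Ct →* G} (h : JD J Cc)
    (e : N ⧸ pCore 2 N ≃* S3 × M24) (h3 : Cc.relIndex N = 3) {α : L →* SL32} (d : LD Cc N L α) :
    ∃ (J : Ct →* G) (Θ : G → S3 × M24) (t : S3) (x : Ct), J.range = Cc ∧ Dat J N Θ t x := by
  classical
  have := finite_of_relIndex (H := Cc) (K := N) (by omega)
  obtain ⟨a, ha⟩ := (Grp.pCore_isPGroup 2 N).exists_card_eq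
  have c1 := Grp.card_quotient_mul_card (pCore 2 N)
  rw [Nat.card_congr e.toEquiv, Nat.card_prod, Nat.card_perm, Nat.card_fin, M24C.card_M24, ha] at c1
  let θ := e.toMonoidHom.comp (QuotientGroup.mk' (pCore 2 N))
  have θ1 : Function.Surjective θ := e.surjective.comp (QuotientGroup.mk'_surjective _)
  have θ2 : θ.ker = pCore 2 N := by
    rw [MonoidHom.ker_comp_of_injective _ _ e.injective, QuotientGroup.ker_mk']
  have θ3 : θ.ker ≤ Cc.subgroupOf N := θ2 ▸ Grp.le_of_coprime_card_index (by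
    rw [ha, ← relIndex, h3]; exact Nat.Coprime.pow_left _ (by norm_num))
  obtain ⟨t, t1, t2, t3⟩ := exists_t ((index_map_eq _ θ1 θ3).trans h3)
  have c2 := Grp.card_inf_mul_relIndex' Cc N
  have : Finite (Cc ⊓ N : Subgroup G) := Finite.of_injective _ (inclusion_injective inf_le_left)
  obtain ⟨n, hn⟩ := exists_prime_orderOf_dvd_card' (G := (Cc ⊓ N : Subgroup G)) 23 (by
    rw [h3, ← c1] at c2; simp only [Nat.factorial] at c2; omega)
  obtain ⟨J, x, j, x1, x2, x3⟩ := h.exists_x n.2.1 n.2.2 ((orderOf_coe n).trans hn)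
  refine ⟨J, fun g => if h : g ∈ N then θ ⟨g, h⟩ else 1, t, x, j.range, j.inj, j.ker, inferInstance,
    fun a ha b hb => ?_, fun s => ?_, fun n hn e => ?_, t1, t2, fun n hn => ?_, x1, x2, x3,
    fun M h1 h2 h4 => ?_⟩
  · rw [dif_pos ha, dif_pos hb, dif_pos (mul_mem ha hb), ← map_mul]; rfl
  · obtain ⟨n, rfl⟩ := θ1 s
    exact ⟨n, n.2, dif_pos n.2⟩
  · rw [dif_pos hn] at e
    exact (Grp.pCore_isPGroup 2 N ⟨_, θ2.le e⟩).imp fun _ a =>
      congrArg (fun x : pCore 2 N => (x : G)) a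
  · rw [dif_pos hn, ← t3, j.range, ← mem_comap, comap_map_eq_self θ3]; rfl
  · rw [j.range] at h4 ⊢
    refine d.le_of_norm (fun b => ?_) h3 (Q := (J.comp qT).range) ?_ ?_ ?_ h1 h2 h4
    · rw [← c1] at b
      exact absurd ((Nat.Coprime.pow_right a (by norm_num)).dvd_of_dvd_mul_right b) (by decide)
    · rintro ⟨_, q, rfl⟩
      exact ⟨2, Subtype.ext ((map_pow _ _ _).symm.trans (by rw [HQ_pow, map_one]; rfl))⟩
    · rintro _ ⟨q, rfl⟩
      exact j.range.le ⟨_, rfl⟩
    · rintro c hc _ ⟨q, rfl⟩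
      obtain ⟨y, rfl⟩ := j.range.ge hc
      exact ⟨_, (conjQ J y q).symm⟩

end Cfsg.Agent.MonU.Am
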