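import Mathlib

/-! Centralisers of elements of order three in `SL₃(2)`. -/

set_option autoImplicit false

namespace Cfsg.Agent.MonU.Am

open Matrix

/-- The simple group of order 168. -/
abbrev SL32 : Type := SpecialLinearGroup (Fin 3) (ZMod 2)

set_option synthInstance.maxSize 9000 in
set_option synthInstance.maxHeartbeats 400000 in
theorem cent3' {a b : Matrix (Fin 3) (Fin 3) (ZMod 2)} (h : a * a * a = 1) (h1 : a ≠ 1)
    (hc : a * b = b * a) (hb : b.det = 1) : b = 1 ∨ b = a ∨ b = a * a := by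
  rw [det_fin_three] at hb
  simp only [ne_eq, ← Matrix.ext_iff, Fin.forall_fin_succ, IsEmpty.forall_iff, and_true, mul_apply,
    Fin.sum_univ_three, Fin.succ_zero_eq_one, Fin.succ_one_eq_two, one_apply, Fin.reduceEq,
    if_true, if_false] at h h1 hc ⊢
  revert hc hb
  generalize b 0 0 = j, b 0 1 = k, b 0 2 = l, b 1 0 = m, b 1 1 = n, b 1 2 = o, b 2 0 = p, b 2 1 = q,
    b 2 2 = r
  revert j k l m n o p q r h1 h
  generalize a 0 0 = j, a 0 1 = k, a 0 2 = l, a 1 0 = m, a 1 1 = n, a 1 2 = o, a 2 0 = p, a 2 1 = q,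
    a 2 2 = r
  revert j k l m n o p q r
  decide +kernel

theorem cent3 {a b : SL32} (h : a * a * a = 1) (h1 : a ≠ 1) (hc : a * b = b * a) :
    b = 1 ∨ b = a ∨ b = a * a :=
  (cent3' (congrArg Subtype.val h) (fun e => h1 (Subtype.ext e)) (congrArg Subtype.val hc) b.2).imp
    Subtype.ext (Or.imp Subtype.ext Subtype.ext)

end Cfsg.Agent.MonU.Am
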