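import Cfsg.Agent.MonU.AmA
import Cfsg.Agent.MonU.AmL0
import Cfsg.Agent.LES.CountUtil

/-! Facts on the simple group of order 168. -/

set_option autoImplicit false

namespace Cfsg.Agent.MonU.Am

open Subgroup

theorem max_of_prime {A : Type*} [Group A] {H K : Subgroup A} {p : ℕ} (hp : p.Prime)
    (h : H.index = p) (hle : H ≤ K) : K ≤ H ∨ K = ⊤ := by
  have := (relIndex_mul_index hle).trans h
  rcases (Nat.dvd_prime hp).1 (Dvd.intro_left _ this) with e | e
  · exact Or.inr (index_eq_one.1 e)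
  · rw [e, mul_left_eq_self₀] at this
    exact Or.inl (relIndex_eq_one.1 (this.resolve_right hp.ne_zero))

theorem eq_one_of_two_three {A : Type*} [Group A] {y : A} {n : ℕ} (h2 : y ^ 2 ^ n = 1)
    (h3 : y ^ 3 = 1) : y = 1 :=
  orderOf_eq_one_iff.1 (Nat.eq_one_of_dvd_coprimes
    (Nat.Coprime.pow_right n (by norm_num : Nat.Coprime 3 2)) (orderOf_dvd_of_pow_eq_one h3)
    (orderOf_dvd_of_pow_eq_one h2))

theorem false_of_168 [IsSimpleGroup SL32] (hA : Nat.card SL32 = 168) {S S' X Y : Subgroup SL32}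
    (hS : S.index = 7) (hS' : S'.index = 7) (hSS : (S ⊓ S').index = 21) (hXS : X ≤ S)
    (hX : ∀ s ∈ S, ∀ x ∈ X, s * x * s⁻¹ ∈ X) (hYS : Y ≤ S')
    (hY : ∀ s ∈ S', ∀ y ∈ Y, s * y * s⁻¹ ∈ Y) (h2 : IsPGroup 2 Y) (hXY : S' ⊓ X ≤ Y) {a : SL32}
    (ha : a ∈ X) (h3 : a ^ 3 = 1) (h1 : a ≠ 1) : False := by
  have : Fact (Nat.Prime 3) := ⟨Nat.prime_three⟩
  have k1 : ∀ y ∈ Y, y ^ 3 = 1 → y = 1 := fun y hy e =>
    let ⟨_, hn⟩ := h2 ⟨y, hy⟩; eq_one_of_two_three (congrArg Subtype.val hn) e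
  have k2 : ∀ a : SL32, a ^ 3 = 1 → a ≠ 1 → centralizer {a} ≤ zpowers a := fun a h3 h1 b hb => by
    rcases cent3 (by rw [← h3, pow_three']) h1 (mem_centralizer_singleton_iff.1 hb).symm with
      rfl | rfl | rfl
    exacts [one_mem _, mem_zpowers _, mul_mem (mem_zpowers _) (mem_zpowers _)]
  have c1 := S.card_mul_index
  have c2 := S'.card_mul_index
  have c3 := relIndex_mul_index (inf_le_left : S ⊓ S' ≤ S)
  rw [inf_relIndex_left, hS, hSS] at c3
  rw [hS, hA] at c1
  rw [hS', hA] at c2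
  have c4 := Grp.card_inf_mul_relIndex' S' X
  have c5 := Nat.mul_le_mul_left (Nat.card (S' ⊓ X : Subgroup SL32))
    (relIndex_le_of_le_right (H := S') hXS (by omega))
  rw [show S'.relIndex S = 3 by omega] at c5
  have c6 := Grp.card_inf_mul_relIndex' (centralizer {a}) S
  have c7 := Nat.mul_le_mul_right ((centralizer {a}).relIndex S)
    (card_le_of_le (inf_le_left.trans (k2 a h3 h1) : centralizer {a} ⊓ S ≤ _))
  rw [Nat.card_zpowers, orderOf_eq_prime h3 h1, c6, LES.relIndex_cent_eq_ncard] at c7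
  have c8 : {y | ∃ e ∈ S, e * a * e⁻¹ = y} ⊆ (X : Set SL32) \ S' := by
    rintro _ ⟨e, he, rfl⟩
    exact ⟨hX e he a ha, fun h => h1 (by
      simpa using k1 _ (hXY ⟨h, hX e he a ha⟩) (by rw [conj_pow, h3]; simp))⟩
  have c9 := Set.ncard_inter_add_ncard_sdiff_eq_ncard (X : Set SL32) S'
  have c10 := Set.ncard_le_ncard c8
  rw [Set.inter_comm, ← coe_inf, ← Nat.card_coe_set_eq, ← Nat.card_coe_set_eq (X : Set SL32),
    SetLike.coe_sort_coe, SetLike.coe_sort_coe] at c9
  have c11 := card_le_of_le hXY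
  obtain ⟨n, hn⟩ := h2.exists_card_eq
  obtain ⟨⟨b, hb⟩, e⟩ := exists_prime_orderOf_dvd_card' (G := S') 3 (by omega)
  rw [← orderOf_coe] at e
  have b3 : b ^ 3 = 1 := orderOf_dvd_iff_pow_eq_one.1 e.dvd
  have c12 := cnt_set (p := 3) (Y : Set SL32) (fun y => b * y * b⁻¹) (hY b hb) fun y _ => by
    simp only [Function.iterate_succ_apply', Function.iterate_zero_apply]
    calc _ = b ^ 3 * y * (b ^ 3)⁻¹ := by rw [pow_three]; group
      _ = y := by rw [b3]; simp
  rw [show {x | x ∈ (Y : Set SL32) ∧ b * x * b⁻¹ = x} = {1} from Set.ext fun y =>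
    ⟨fun hy => k1 y hy.1 (by
      obtain ⟨k, rfl⟩ := k2 b b3 (fun h => by simp [h] at e)
        (mem_centralizer_singleton_iff.2 (mul_inv_eq_iff_eq_mul.1 hy.2).symm)
      rw [← zpow_natCast, ← zpow_mul, mul_comm, zpow_mul, zpow_natCast, b3, one_zpow]),
    fun hy => by rw [hy]; exact ⟨one_mem _, by simp⟩⟩, SetLike.coe_sort_coe,
    Nat.card_unique (α := ({1} : Set SL32))] at c12
  have c13 : Nat.card Y = 4 := by
    have h := card_dvd_of_le hYS
    rw [show Nat.card S' = 24 by omega] at h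
    have := Nat.le_of_dvd (by decide) h
    rw [hn] at c11 c12 h this ⊢
    have : n < 5 := by
      by_contra hc
      exact absurd ((Nat.pow_le_pow_right (by decide) (not_lt.1 hc)).trans this) (by decide)
    interval_cases n <;> first | rfl | omega | exact absurd c12 (by decide)
  have c14 := Set.eq_of_subset_of_ncard_le c8 (by omega)
  have c15 : S ≤ normalizer (Y : Set SL32) := fun s hs => mem_normalizer_fintype fun y hy => by
    have hx := hX s hs y ((eq_of_le_of_card_ge hXY (by omega)).ge hy).2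
    refine hXY ⟨by_contra fun h => ?_, hx⟩
    obtain ⟨e, -, he⟩ := c14.ge ⟨hx, h⟩
    have := congrArg (· ^ 3) he
    simp only [conj_pow, h3, mul_one, mul_inv_cancel] at this
    rw [k1 y hy (by simpa using this.symm)] at h
    exact h (by simp)
  rcases max_of_prime (by norm_num) hS c15 with h | h
  · rw [inf_of_le_right (le_trans (fun s hs => mem_normalizer_fintype (hY s hs)) h)] at hSS
    omega
  · rcases (normalizer_eq_top_iff.1 h).eq_bot_or_eq_top with rfl | rfl
    · simp at c13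
    · rw [card_top] at c13; omega

end Cfsg.Agent.MonU.Am
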