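import Cfsg.Agent.MonU.AmL1
import Cfsg.Agent.F24.TrioAux
import Cfsg.Agent.Grp.AutCard

/-! A subgroup with quotient `L₃(2)` meeting `C` and `N` with index seven. -/

set_option autoImplicit false

namespace Cfsg.Agent.MonU.Am

open Subgroup

variable {G : Type*} [Group G]

theorem three_dvd_inf [Finite G] {M H : Subgroup G} [M.Normal] (hH : ¬ 3 ∣ H.index)
    (h3 : 3 ∣ Nat.card M) : 3 ∣ Nat.card (H ⊓ M : Subgroup G) := by
  have h := Grp.card_sup_mul_card_inf H M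
  rw [← Grp.card_mul_relIndex (le_sup_left : H ≤ H ⊔ M), mul_assoc,
    Nat.mul_right_inj Nat.card_pos.ne'] at h
  exact ((Nat.Prime.dvd_mul Nat.prime_three).1 (h ▸ h3)).resolve_left fun e =>
    hH (e.trans (relIndex_dvd_index_of_le le_sup_left))

theorem full_aut {W L : Subgroup G} (hc : ∀ x ∈ W, ∀ y ∈ W, x * y = y * x)
    (he : ∀ x ∈ W, x ^ 2 = 1) (h8 : Nat.card W = 8) (hL : L ≤ normalizer (W : Set G))
    (hi : 168 ≤ (centralizer (W : Set G)).relIndex L) {g : G} (hg : g ∈ normalizer (W : Set G)) :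
    ∃ l ∈ L, l⁻¹ * g ∈ centralizer (W : Set G) := by
  have : Finite W := Nat.finite_of_card_ne_zero (by omega)
  have h1 := Grp.card_mulAut_of_elemAb (V := W) (p := 2) (r := 3)
    (fun x y => Subtype.ext (hc x x.2 y y.2)) (fun x => Subtype.ext (he x x.2)) h8
  have h2 : (L.subgroupOf (normalizer (W : Set G))).map W.normalizerMonoidHom = ⊤ :=
    eq_top_of_le_card _ (by
      rw [← relIndex_ker, normalizerMonoidHom_ker, relIndex_subgroupOf hL, h1]; exact hi)
  obtain ⟨l, h3, h4⟩ := h2.ge (mem_top (W.normalizerMonoidHom ⟨g, hg⟩))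
  refine ⟨l, h3, ?_⟩
  have : l⁻¹ * ⟨g, hg⟩ ∈ W.normalizerMonoidHom.ker := by
    rw [MonoidHom.mem_ker, map_mul, map_inv, h4, inv_mul_cancel]
  rwa [normalizerMonoidHom_ker] at this

/-- The data of the third member of the amalgam. -/
structure LD (C N L : Subgroup G) (α : L →* SL32) : Prop where
  fin : Finite L
  surj : Function.Surjective α
  ker : ∃ a, Nat.card α.ker = 2 ^ a * 2160
  hN : N.relIndex L = 7
  hC : C.relIndex L = 7
  hNC : (N ⊓ C).relIndex L = 21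

namespace LD

variable {C N L : Subgroup G} {α : L →* SL32} (d : LD C N L α)
include d

theorem ker_le {H : Subgroup G} (h : H.relIndex L = 7) : α.ker ≤ H.subgroupOf L := by
  have := d.fin
  obtain ⟨a, ha⟩ := d.ker
  refine Grp.le_of_coprime_card_index ?_
  rw [ha, ← relIndex, h]
  exact Nat.Coprime.mul_left (Nat.Coprime.pow_left _ (by norm_num)) (by norm_num)

theorem index_map {H : Subgroup G} (h : H.relIndex L = 7) : ((H.subgroupOf L).map α).index = 7 :=
  (index_map_eq _ d.surj (d.ker_le h)).trans h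

theorem le_of_norm {Q M : Subgroup G} [Finite N] (hc : ¬ 243 ∣ Nat.card N)
    (h3 : C.relIndex N = 3) (hQ : IsPGroup 2 Q) (hQC : Q ≤ C)
    (hn : ∀ c ∈ C, ∀ q ∈ Q, c * q * c⁻¹ ∈ Q) (hM : M ≤ N)
    (hMn : ∀ n ∈ N, ∀ m ∈ M, n * m * n⁻¹ ∈ M) (hMC : ∀ m ∈ M, m ∈ C → m ∈ Q) : M ≤ C := by
  have := d.fin
  have := F24.simple_SL32
  have : Fact (Nat.Prime 3) := ⟨Nat.prime_three⟩
  have : (M.subgroupOf N).Normal := ⟨fun m hm n => hMn n n.2 m hm⟩
  by_contra hMC'
  have h1 : 3 ∣ Nat.card (M.subgroupOf N) := by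
    by_contra h
    refine hMC' fun m hm => Grp.le_of_coprime_card_index (H := C.subgroupOf N) ?_
      (show (⟨m, hM hm⟩ : N) ∈ M.subgroupOf N from hm)
    rw [← relIndex, h3]
    exact ((Nat.Prime.coprime_iff_not_dvd Nat.prime_three).2 h).symm
  have h2 : ¬ 3 ∣ (L.subgroupOf N).index := fun h => by
    obtain ⟨a, ha⟩ := d.ker
    have a1 := Grp.card_inf_mul_relIndex' N L
    have a2 := α.ker.card_mul_index
    rw [index_ker, MonoidHom.range_eq_top.2 d.surj, card_top, S0255.card_SL32, ha] at a2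
    rw [d.hN, ← a2] at a1
    refine hc (Grp.card_inf_mul_relIndex' L N ▸ mul_dvd_mul (a := 81) ?_ h)
    rw [inf_comm]
    omega
  obtain ⟨⟨⟨x, x1⟩, x2, x3⟩, e⟩ := exists_prime_orderOf_dvd_card' 3 (three_dvd_inf h2 h1)
  rw [← orderOf_coe, ← orderOf_coe] at e
  have x4 : x ^ 3 = 1 := orderOf_dvd_iff_pow_eq_one.1 e.dvd
  refine false_of_168 S0255.card_SL32 (d.index_map d.hN) (d.index_map d.hC)
    (X := (M.subgroupOf L).map α) (Y := (Q.subgroupOf L).map α) ?_ (map_mono fun _ h => hM h) ?_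
    (map_mono fun _ h => hQC h) ?_ (hQ.comap_subtype.map α) ?_ ⟨⟨x, x2⟩, x3, rfl⟩ ?_ fun h => ?_
  · rw [← index_comap_of_surjective _ d.surj, comap_inf, comap_map_eq_self (d.ker_le d.hN),
      comap_map_eq_self (d.ker_le d.hC)]
    exact d.hNC
  · rintro _ ⟨s, hs, rfl⟩ _ ⟨m, hm, rfl⟩
    exact ⟨s * m * s⁻¹, hMn _ hs _ hm, by simp⟩
  · rintro _ ⟨s, hs, rfl⟩ _ ⟨m, hm, rfl⟩
    exact ⟨s * m * s⁻¹, hn _ hs _ hm, by simp⟩
  · rintro _ ⟨h, m, hm, rfl⟩
    exact ⟨m, hMC _ hm ((comap_map_eq_self (d.ker_le d.hC)).le h), rfl⟩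
  · rw [← map_pow, ← map_one α]; exact congrArg α (Subtype.ext x4)
  · obtain ⟨n, hn⟩ := hQ ⟨x, hMC x x3 (d.ker_le d.hC h)⟩
    rw [eq_one_of_two_three (congrArg Subtype.val hn) x4] at e
    simp at e

theorem not_le : ¬ ∀ l ∈ L, l ∈ N → l ∈ C := fun h => by
  have := d.hNC
  rw [relIndex, show (N ⊓ C).subgroupOf L = N.subgroupOf L from
    Subgroup.ext fun l => and_iff_left_of_imp (h l l.2), ← relIndex, d.hN] at this
  omega

theorem le_of {H : Subgroup G} (h1 : ∀ l ∈ L, l ∈ C → l ∈ H) :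
    (∀ l ∈ L, l ∈ H → l ∈ C) ∨ L ≤ H :=
  (max_of_prime (K := H.subgroupOf L) (by norm_num) d.hC fun l => h1 l l.2).imp
    (fun h l a b => h (show (⟨l, a⟩ : L) ∈ H.subgroupOf L from b)) subgroupOf_eq_top.1

theorem le_of' {H : Subgroup G} (h1 : ∀ l ∈ L, l ∈ C → l ∈ H) (h2 : ∀ l ∈ L, l ∈ N → l ∈ H) :
    L ≤ H :=
  (d.le_of h1).resolve_left fun h => d.not_le fun l a b => h l a (h2 l a b)

theorem le_relIndex {H : Subgroup G} (hn : ∀ l ∈ L, ∀ m ∈ H, l * m * l⁻¹ ∈ H)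
    (h : ∀ l ∈ L, l ∈ H → l ∈ C) : 168 ≤ H.relIndex L := by
  have := d.fin
  have := F24.simple_SL32
  have : (H.subgroupOf L).Normal := ⟨fun m hm n => hn n n.2 m hm⟩
  rcases (this.map α d.surj).eq_bot_or_eq_top with e | e
  · have := index_antitone ((Subgroup.map_eq_bot_iff _).1 e)
    rwa [index_ker, MonoidHom.range_eq_top.2 d.surj, card_top, S0255.card_SL32] at this
  · have := d.index_map d.hC
    rw [eq_top_mono (map_mono (K' := C.subgroupOf L) fun l => h l l.2) e, index_top] at this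
    omega

end LD

end Cfsg.Agent.MonU.Am
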