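import Cfsg.Agent.MonU.AmL2
import Cfsg.Agent.MonU.UqBraid
import Cfsg.Agent.MonU.Frame

/-! The third member of the amalgam forces the braid relation. -/

set_option autoImplicit false

namespace Cfsg.Agent.MonU.Am

open Cfsg Cfsg.Spor Cfsg.Agent.Spor Cfsg.Agent.Spor.Leech Matrix Subgroup Fr Br

theorem tetrad_of {v : leechLattice} (hv : sqNorm (v : GolayPt → ℤ) = 64) (ha : (psi v).a = 0) :
    ∃ T : Finset GolayPt, (T = ∅ ∨ T.card = 4) ∧ ∃ β : ZMod 2, (psi v).b = hat (ind T) + β • e11 := by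
  obtain ⟨m, hm, c, hc, h1, -⟩ := mem_leech_iff.1 v.2
  have a1 : ip2 v (uV 11) = 0 := congrFun ha 11
  rw [ip2, dot_uV11, ZMod.intCast_zmod_eq_zero_iff_dvd] at a1
  have a2 : MonU.co (ind c) = 0 := v_ext (fun k => by
    have a : ip2 v (uV k.castSucc) = 0 := congrFun ha _
    rw [ip2, dot_uV, ZMod.intCast_zmod_eq_zero_iff_dvd] at a
    have b1 := h1 (pt (12 + k))
    have b2 := h1 none
    simp only [co_cs, ind, Pi.zero_apply]
    split_ifs at b1 b2 ⊢ <;> first | rfl | omega) (co_11 _)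
  have a3 := c11_co (mem_GC_iff.1 hc)
  rw [a2, c11_zero] at a3
  have a4 : ∀ i, i ∈ c ↔ none ∈ c := fun i => by
    have := congrFun a3 i
    simp only [ind, Pi.add_apply, Pi.smul_apply, Pi.one_apply, Pi.zero_apply, smul_eq_mul] at this
    split_ifs at this <;> simp_all
  have a5 : ∀ i, (v : GolayPt → ℤ) i = 4 * ((v : GolayPt → ℤ) i / 4) := by
    by_cases h : none ∈ c
    · have : ∑ _i : GolayPt, (4 : ℤ) ≤ sqNorm (v : GolayPt → ℤ) := Finset.sum_le_sum fun i _ => by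
        have b1 := h1 i
        have b2 := h1 none
        rw [if_pos ((a4 i).2 h)] at b1
        rw [if_pos h] at b2
        rcases (by omega : 2 ≤ (v : GolayPt → ℤ) i ∨ (v : GolayPt → ℤ) i ≤ -2) with e | e <;>
          nlinarith
      rw [hv] at this
      exact absurd this (by decide +kernel)
    · intro i
      have b1 := h1 i
      have b2 := h1 none
      rw [if_neg (mt (a4 i).1 h)] at b1
      rw [if_neg h] at b2
      omega
  obtain ⟨n, hn⟩ : ∃ n : GolayPt → ℤ, ∀ i, (v : GolayPt → ℤ) i = 4 * n i := ⟨_, a5⟩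
  refine ⟨Finset.univ.filter fun i => n i % 2 = 1, ?_, _, (congrArg HQ.b (psi_four v n hn)).trans
    (congrArg (hat · + _) (funext fun i => ?_))⟩
  · have a6 : sqNorm (v : GolayPt → ℤ) = 16 * ((Finset.univ.filter fun i => n i % 2 = 1).card +
        4 * ∑ i, n i ^ 2 / 4) := by
      rw [sqNorm, Finset.card_filter, Nat.cast_sum, Finset.mul_sum, ← Finset.sum_add_distrib,
        Finset.mul_sum]
      refine Finset.sum_congr rfl fun i _ => ?_
      rw [hn, mul_pow]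
      obtain ⟨k, e | e⟩ := Int.even_or_odd' (n i) <;> rw [e]
      · rw [if_neg (by omega), show (2 * k) ^ 2 = 4 * k ^ 2 by ring]; omega
      · rw [if_pos (by omega), show (2 * k + 1) ^ 2 = 4 * (k ^ 2 + k) + 1 by ring]; omega
    have : 0 ≤ ∑ i, n i ^ 2 / 4 := Finset.sum_nonneg fun i _ => by positivity
    rw [← Finset.card_eq_zero]
    omega
  · simp only [ind, Finset.mem_filter, Finset.mem_univ, true_and]
    split_ifs with h
    · exact cast2 (y := 1) h
    · exact cast2 (y := 0) (by omega)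

theorem mem_Nx_of {c : C} {e e' : ZMod 2} (h : cj c ⟨0, e11, e⟩ = ⟨0, e11, e'⟩) : c ∈ Nx := by
  rw [mem_Nx_iff]
  rcases Spor.zmod2_cases e with rfl | rfl <;> rcases Spor.zmod2_cases e' with rfl | rfl
  exacts [Or.inl (mul_right_cancel ((cj_XOM c).symm.trans (h.trans XOM_eq))),
    Or.inr (mul_right_cancel ((cj_XOM c).symm.trans (h.trans S0_eq))), Or.inr h, Or.inl h]

theorem exists_norm {c : C} (ha : (cj c S0).a = 0) (h : c ∉ Nx) :
    ∃ k ∈ N, ∃ t e : ZMod 2, cj k (cj c S0) = ⟨0, bv 1441 + t • e11, e⟩ := by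
  obtain ⟨x, rfl⟩ := mkC_surjective c
  have h1 := cl_cj x S0
  rw [show cl S0 = ψ (e8 none) from (congrArg cl psi_e8 :).symm, smul_ψ] at h1
  obtain ⟨T, hT, β, e⟩ := tetrad_of ((sqNorm_smul _ _).trans (sqNorm_e8 none))
    ((congrArg Prod.fst h1).symm.trans ha)
  have h2 : cj (mkC x) S0 = ⟨0, hat (ind T) + β • e11, (cj (mkC x) S0).e⟩ :=
    HQ.ext ha ((congrArg Prod.snd h1).trans e) rfl
  rcases hT with rfl | hT
  · rw [show ind ∅ = 0 from rfl, hat_zero, zero_add] at h2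
    rcases Spor.zmod2_cases β with rfl | rfl
    · have := congrArg cl (cj_inv h2)
      rw [← map_inv, cl_cj, zero_smul, show cl _ = 0 from rfl, smul_zero] at this
      exact absurd this (by decide)
    · exact absurd (mem_Nx_of (one_smul (ZMod 2) e11 ▸ h2)) h
  · obtain ⟨g, hg⟩ := M24C.exists_smul_finset (t := {none, some 0, some 1, some 2})
      (show T.card ≤ 5 by omega) (hT.trans (by decide))
    obtain ⟨k, hk⟩ := exists_isAut g.2
    refine ⟨k, isAut_mem hk, β, (cj (mkC x) S0).e, ?_⟩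
    conv_lhs => rw [h2]
    rw [isAut_cj hk _ (by simp [ind, hT]; rfl), show bv 1441 =
      hat (ind {none, some 0, some 1, some 2}) by decide +kernel, ← hg]
    congr 3
    funext i
    simp only [ind, Function.comp, ← Finset.inv_smul_mem_iff]
    rfl

/-- The codes of the standard eight-group. -/
def l8 : List ℕ := [0, 16777216, 8388608, 25165824, 5902336, 22679552, 14290944, 31068160]

/-- The standard eight-group. -/
def W8 : Subgroup HQ where
  carrier := {q | ∃ n ∈ l8, HQ.ofNat n = q}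
  one_mem' := ⟨0, by decide +kernel⟩
  mul_mem' := by
    rintro _ _ ⟨n, hn, rfl⟩ ⟨m, hm, rfl⟩
    exact (by decide +kernel : ∀ n ∈ l8, ∀ m ∈ l8, ∃ k ∈ l8, HQ.ofNat k = HQ.ofNat n * HQ.ofNat m)
      n hn m hm
  inv_mem' := by
    rintro _ ⟨n, hn, rfl⟩
    exact ⟨n, hn, (by decide +kernel : ∀ n ∈ l8, HQ.ofNat n = (HQ.ofNat n)⁻¹) n hn⟩

theorem W8_le {H : Subgroup HQ} {t e : ZMod 2} (h1 : zq ∈ H) (h2 : XOM ∈ H)
    (h3 : ⟨0, bv 1441 + t • e11, e⟩ ∈ H) : W8 ≤ H := by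
  rintro _ ⟨n, hn, rfl⟩
  obtain ⟨a, b, c, h⟩ := (by decide +kernel : ∀ t e : ZMod 2, ∀ n ∈ l8, ∃ a b c : Fin 2,
    HQ.ofNat n = ⟨0, bv 1441 + t • e11, e⟩ ^ a.1 * XOM ^ b.1 * zq ^ c.1) t e n hn
  exact h ▸ mul_mem (mul_mem (pow_mem h3 _) (pow_mem h2 _)) (pow_mem h1 _)

theorem le_card_W8 [Finite W8] : 8 ≤ Nat.card W8 := by
  simpa using Nat.card_le_card_of_injective
    (fun i : Fin 8 => (⟨_, l8[i.1], List.getElem_mem _, rfl⟩ : W8)) fun i j h =>
      (by decide +kernel : ∀ i j : Fin 8, HQ.ofNat l8[i.1] = HQ.ofNat l8[j.1] → i = j) i j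
        (congrArg Subtype.val h)

theorem cj_W8 {u : List ℕ} (hu : u ∈ [[1148], bW, eW]) {q : HQ} (h : q ∈ W8) :
    cj (evW u) q ∈ W8 := by
  obtain ⟨T, hT, e⟩ := withTab_spec (by decide +kernel : withTab (fun T => [[1148], bW, eW].all
    fun u => l8.all fun r => l8.contains (cjW T u r)) = true)
  obtain ⟨n, hn, rfl⟩ := h
  simp only [List.all_eq_true, List.contains_iff_mem] at e
  exact ⟨_, e u hu n hn, (cjW_spec hT u ((by decide : ∀ u ∈ [[1148], bW, eW], ∀ c ∈ u, c % 4 = 0 →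
    c < 1152) u hu) n).1.symm⟩

theorem bE_W8 {q : HQ} (h : q ∈ W8) : q.a = 0 ∧ bE q ∈ W8 := by
  obtain ⟨n, hn, rfl⟩ := h
  exact (by decide +kernel : ∀ n ∈ l8, (HQ.ofNat n).a = 0 ∧ ∃ k ∈ l8, HQ.ofNat k = bE (HQ.ofNat n))
    n hn

end Cfsg.Agent.MonU.Am
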