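import Cfsg.Agent.MonU.UqE

/-! Local version of the construction of the triality element. -/

set_option autoImplicit false

namespace Cfsg.Agent.MonU.Uq

open Cfsg Cfsg.Spor Cfsg.Agent.Spor Cfsg.Agent.Spor.GD Cfsg.Agent.Spor.Parker
  Cfsg.Agent.Spor.Leech Cfsg.Agent.TT Cfsg.Agent.LES Cfsg.Agent.LES.Co Matrix Subgroup

variable {G : Type*} [Group G]

theorem xs_HQ : XS (⊤ : Subgroup HQ) zq := by
  refine ⟨mem_top _, by decide, by decide, fun x _ => ?_, fun x _ y _ => ?_, fun x _ hx => ?_,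
    D0, mem_top _, by decide, by decide⟩
  · ext1 <;> simp [zq, add_comm]
  · rcases Spor.zmod2_cases (x.b ⬝ᵥ y.a + y.b ⬝ᵥ x.a) with e | e
    · left
      ext1
      · exact add_comm _ _
      · exact add_comm _ _
      · simp only [HQ.mul_e]
        linear_combination e - GD.add_self (y.b ⬝ᵥ x.a)
    · right
      ext1
      · simp [zq, add_comm]
      · simp [zq, add_comm]
      · simp only [HQ.mul_e, zq, dotProduct_zero, add_zero]
        linear_combination e - GD.add_self (y.b ⬝ᵥ x.a)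
  · have ha : x.a = 0 := ext_dot fun b => by
      simpa [dotProduct_comm] using congrArg HQ.e (hx ⟨0, b, 0⟩ (mem_top _))
    have hb : x.b = 0 := ext_dot fun a => by
      simpa using congrArg HQ.e (hx ⟨a, 0, 0⟩ (mem_top _))
    rcases Spor.zmod2_cases x.e with e | e
    · exact Or.inl (HQ.ext ha hb e)
    · exact Or.inr (HQ.ext ha hb e)

theorem xs_hom {f : HQ →* G} (hf : ∀ q r, f q = f r → q = r) : XS f.range (f zq) :=
  f.range_eq_map ▸ xs_HQ.map f fun x _ e => hf _ _ (e.trans f.map_one.symm)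

theorem xs_range {J : Ct →* G} (hf : ∀ q r, J (qT q) = J (qT r) → q = r) :
    XS (J.comp qT).range (J (qT zq)) := xs_hom (f := J.comp qT) hf

theorem center_of_comm {J : Ct →* G} (hf : ∀ q r, J (qT q) = J (qT r) → q = r) {y : Ct}
    (h : ∀ q, J (qT q) * J y = J y * J (qT q)) : y.1.1 ∈ center Co0 := by
  have h1 : piC (mkC y) = 1 := by
    rcases Fr.triv_of_cj (x := y) (fun q => hf _ _ (by
      rw [UA.qT_cj, map_mul, map_mul, map_inv, ← h, mul_inv_cancel_right])) with e | e <;> rw [e]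
    · exact map_one _
    · rfl
  exact (QuotientGroup.eq_one_iff _).1 h1

theorem mono_of_comm {y : Ct} (h : cj (mkC y) S0 = S0) : y.1.1 ∈ monoSub := by
  have h1 : cj (mkC y) XOM = XOM := by rw [← S0_mul_zq, cj_map_mul, h, cj_zq]
  obtain ⟨e, he⟩ := cj_psi y (uV 11)
  have h2 : psi (uV 11) = XOM := psi_uV 11
  rw [h2, h1, ← h2, uV_11] at he
  exact mem_monoSub_iff_congr.2
    (Fr.congr_of_psi (congrArg HQ.a he).symm (congrArg HQ.b he).symm)

theorem tri_cube' {J : Ct →* G} {τ : G} (h : Tri J (cjJ J τ))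
    (hi : J (qT D0) * τ * J (qT D0) * τ = 1)
    (hL : τ * τ * τ * J (qT zq) = J (qT zq) * (τ * τ * τ) → τ * τ * τ ∈ J.range)
    (hker : ∀ y, y.1.1 ∈ center Co0 → J y ∈ (J.comp qT).range) : τ * τ * τ = 1 := by
  have hE : ∀ b e, τ⁻¹ * J (qT ⟨0, b, e⟩) * τ = J (qT (bE ⟨0, b, e⟩)) := fun b e => by
    rw [← cjJ_apply, h.E]
  have key : ∀ q : HQ, q.a 11 = 0 → τ * τ * τ * J (qT q) = J (qT q) * (τ * τ * τ) := by
    have conv : ∀ x : G, τ⁻¹ * (τ⁻¹ * (τ⁻¹ * x * τ) * τ) * τ = x →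
        τ * τ * τ * x = x * (τ * τ * τ) := fun x hx => by
      nth_rw 1 [← hx]; group
    have kE : ∀ b e, τ * τ * τ * J (qT ⟨0, b, e⟩) = J (qT ⟨0, b, e⟩) * (τ * τ * τ) := by
      intro b e
      refine conv _ ?_
      conv_rhs => rw [← bE_cube]
      rw [hE]
      nth_rw 1 [bE]
      rw [hE]
      nth_rw 1 [bE]
      rw [hE]
      rfl
    have kX : ∀ e, τ * τ * τ * J (qT (xl e)) = J (qT (xl e)) * (τ * τ * τ) := by
      intro e
      refine conv _ ?_
      obtain ⟨y, hy⟩ := exists_YT (c11_mem e)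
      have h1 := hy.mul_xl
      have h2 := hy.mul_E (th (c11 e) (c11 e) • e11) 0
      rw [co_c11] at h1 h2
      rw [xl_low] at h1
      simp only [smul_dotProduct, e11_dot, low_11, smul_zero, zero_smul, add_zero] at h2
      have h3 : xl e * (bE ⟨0, th (c11 e) (c11 e) • e11, 0⟩ *
          (⟨0, th (c11 e) (c11 e) • e11, 0⟩ * xl e)) = 1 := by
        ext1 <;> simp [bE, xl, low_smul, low_e11, e11_11, e11_dot, low_11, hat_TT_dot, c11_low,
          GD.add_self]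
        rw [← add_assoc (_ • e11), V12.add_self, zero_add, V12.add_self]
      have h4 := h.Y (c11_mem e) hy
      rw [xw_c11] at h4
      have h5 : qT (xl e) * (qT (bE ⟨0, th (c11 e) (c11 e) • e11, 0⟩) *
          (y * qT (⟨0, th (c11 e) (c11 e) • e11, 0⟩ * xl e))) = y := by
        rw [map_mul, ← mul_assoc y, h2, mul_assoc _ y, h1, ← mul_assoc _ _ y, ← mul_assoc _ _ y,
          ← mul_assoc _ _ y, ← map_mul, ← map_mul, ← map_mul, h3, map_one, one_mul]
      rw [← cjJ_apply, tri_X h hi hy, ← cjJ_apply, map_mul, map_mul qT, map_mul, h.E, tri_X h hi hy,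
        h4, ← map_mul, ← map_mul, h5, ← cjJ_apply, h4]
    intro q hq
    have e : q = xl q.a * ⟨0, ((xl q.a)⁻¹ * q).b, ((xl q.a)⁻¹ * q).e⟩ := by
      rw [← inv_mul_eq_iff_eq_mul]
      ext1
      · simp [xl, low_of hq]
      · rfl
      · rfl
    rw [e, map_mul, map_mul, ← mul_assoc, kX, mul_assoc, kE, ← mul_assoc _ _ (τ * τ * τ)]
  have hτ : τ⁻¹ * (τ * τ * τ) * τ = τ * τ * τ := by group
  generalize τ * τ * τ = k at key hτ hL
  obtain ⟨y0, hy0⟩ := hL (key zq rfl)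
  obtain ⟨r, hr⟩ : ∃ r, J (qT r) = k * J (qT D0) * k⁻¹ :=
    ⟨cj (mkC y0) D0, by rw [UA.qT_cj, map_mul, map_mul, map_inv, hy0]⟩
  have h1 : ∀ q : HQ, q.a 11 = 0 → r * q * r⁻¹ = D0 * q * D0⁻¹ := fun q hq => h.inj _ _ (by
    have a := key _ (show (D0 * q * D0⁻¹).a 11 = 0 by simp [D0, e11_11, hq, GD.add_self])
    have b := key q hq
    simp only [map_mul, map_inv] at a ⊢
    rw [hr]
    calc _ = k * J (qT D0) * (k⁻¹ * (J (qT q) * k)) * (J (qT D0))⁻¹ * k⁻¹ := by group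
      _ = k * (J (qT D0) * J (qT q) * (J (qT D0))⁻¹) * k⁻¹ := by rw [← b]; group
      _ = _ := by rw [a]; group)
  have ha : r.a = e11 := ext_dot fun x => by
    have := congrArg HQ.e (h1 ⟨0, x, 0⟩ rfl)
    simp only [HQ.mul_e, HQ.mul_b, HQ.inv_e, HQ.inv_a, D0, dotProduct_zero, add_zero,
      add_dotProduct, zero_dotProduct, zero_add] at this
    rw [dotProduct_comm, dotProduct_comm e11, ← this]
    generalize r.e = t1, r.b ⬝ᵥ r.a = t2, x ⬝ᵥ r.a = t3
    revert t1 t2 t3; decide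
  have hb1 : r.b 11 = 0 := by
    have : r * r = 1 := h.inj _ _ (by
      rw [map_mul, map_mul, hr, conj_mul, ← map_mul, ← map_mul, D0_sq]; simp)
    simpa [ha, dot_e11, GD.add_self] using congrArg HQ.e this
  have hb : r.b = 0 := ext_dot fun x => by
    have := congrArg HQ.e (h1 ⟨low x, 0, 0⟩ (low_11 x))
    simp only [HQ.mul_e, HQ.mul_b, HQ.inv_e, HQ.inv_a, D0, add_zero, ha, dot_e11, hb1,
      zero_dotProduct] at this
    rw [← low_add_e11 x, dotProduct_add, dotProduct_smul, dot_e11, hb1, smul_zero, add_zero,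
      zero_dotProduct]
    linear_combination this - GD.add_self r.e
  let v : HQ := ⟨0, r.e • e11, 0⟩
  have h2 : ∀ q : HQ, k * J (qT q) * k⁻¹ = J (qT (v * q * v⁻¹)) := by
    have h3 : ∀ q : HQ, q.a 11 = 0 → k * J (qT q) * k⁻¹ = J (qT (v * q * v⁻¹)) := fun q hq => by
      rw [key q hq, mul_inv_cancel_right]
      refine congrArg (fun q => J (qT q)) ?_
      ext1
      · simp [v]
      · show q.b = r.e • e11 + q.b + r.e • e11
        rw [add_right_comm, V12.add_self, zero_add]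
      · simp [v, e11_dot, hq]
    intro q
    rcases Spor.zmod2_cases (q.a 11) with e | e
    · exact h3 q e
    · have a := h3 (q * D0) (by simp [D0, e, e11_11, GD.add_self])
      have b : v * D0 * v⁻¹ = r := by ext1 <;> simp [v, D0, ha, hb, e11_dot, e11_11]
      have c : q = q * D0 * D0 := by rw [mul_assoc, D0_sq, mul_one]
      rw [c, map_mul, map_mul, ← conj_mul, a, ← hr, ← b, ← map_mul, ← map_mul, conj_mul]
  have h3 : ∀ x ∈ (J.comp qT).range, x * ((J (qT v))⁻¹ * k) = (J (qT v))⁻¹ * k * x := by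
    rintro _ ⟨q, rfl⟩
    have := h2 q
    rw [map_mul, map_mul, map_mul, map_mul, map_inv, map_inv, mul_inv_eq_iff_eq_mul] at this
    show J (qT q) * _ = _ * J (qT q)
    rw [mul_assoc, this]; group
  obtain ⟨t, ht⟩ : ∃ t, k = J (qT ⟨0, r.e • e11, t⟩) := by
    have h4 : J ((qT v)⁻¹ * y0) = (J (qT v))⁻¹ * k := by rw [map_mul, map_inv, hy0]
    rcases (xs_range h.inj).cent _ (h4 ▸ hker _ (center_of_comm h.inj fun q =>
      h4 ▸ h3 _ ⟨q, rfl⟩)) (fun x hx => (h3 x hx).symm) with e | e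
    · exact ⟨0, (inv_mul_eq_one.1 e).symm⟩
    · refine ⟨1, ?_⟩
      rw [inv_mul_eq_iff_eq_mul.1 e, ← map_mul, ← map_mul]
      refine congrArg (fun q => J (qT q)) ?_
      ext1 <;> simp [v, zq]
  rw [ht, hE] at hτ
  have h4 := h.inj _ _ hτ
  have h5 := congrArg HQ.e h4
  have h6 := congrFun (congrArg HQ.b h4) 11
  simp only [bE, Pi.smul_apply, e11_11, smul_eq_mul, mul_one, Pi.add_apply, low_11, zero_add,
    add_eq_right] at h5 h6
  rw [ht, h5, h6, zero_smul]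
  exact (congrArg J (map_one qT)).trans (map_one J)

/-- Local data: `P` is the conjugate of `R` with centre `J (qT S0)`. -/
structure LD (z : G) (R P Nn : Subgroup G) (J : Ct →* G) : Prop where
  inj' : ∀ q r, J (qT q) = J (qT r) → q = r
  rangeQ : (J.comp qT).range = R
  zq : J (qT zq) = z
  ker : ∀ y, J y ∈ R → y.1.1 ∈ center Co0
  memN : ∀ q, J (qT q) ∈ Nn
  le : P ≤ Nn
  xs : XS P (J (qT S0))
  z_mem : z ∈ P
  norm : ∀ y : Ct, y * qT S0 = qT S0 * y → ∀ x ∈ P, J y * x * (J y)⁻¹ ∈ P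
  selfc : ∀ x ∈ P, (∀ y ∈ R ⊓ P, y * x = x * y) → x ∈ R
  exc : ∀ A ≤ P, J (qT S0) ∈ A → ∀ x ∈ P, x ∉ A →
    ∃ q ∈ P, (∀ a ∈ A, a * q = q * a) ∧ q * x ≠ x * q
  exy : ∀ y : Ct, y.1.1 ∈ sgnSub → ∃ r, J (y * qT r) ∈ P
  compat : ∀ a ∈ Nn, a * z * a⁻¹ = J (qT S0) → ∀ x, a * x * a⁻¹ ∈ P → x ∈ R

namespace LD

variable {z : G} {R P Nn : Subgroup G} {J : Ct →* G}

theorem comm_z (h : LD z R P Nn J) (x : Ct) : J x * z = z * J x := by
  rw [← h.zq, ← map_mul, zq_comm, map_mul]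

theorem mem_R (h : LD z R P Nn J) {x : G} : x ∈ R ↔ ∃ q, J (qT q) = x := h.rangeQ ▸ Iff.rfl

theorem xsR (h : LD z R P Nn J) : XS R z := h.rangeQ ▸ h.zq ▸ xs_range h.inj'

theorem z_sq (h : LD z R P Nn J) : z * z = 1 := h.xsR.z_sq

theorem sz (h : LD z R P Nn J) : J (qT S0) * z = z * J (qT S0) := h.comm_z _

theorem E_comm (h : LD z R P Nn J) {x y : G} (hx : x ∈ R ⊓ P) (hy : y ∈ R ⊓ P) :
    x * y = y * x := by
  refine comm_of_sq_eq_one (U := R ⊓ P) (fun a ha => (h.xsR.sq ha.1).elim id fun e =>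
    (h.xs.sq ha.2).elim id fun e' => ?_) hx hy
  have := congrFun (congrArg HQ.b (h.inj' _ _ (e'.symm.trans (e.trans h.zq.symm)))) 11
  simp [S0, MonU.zq, e11] at this

theorem comm_mem (h : LD z R P Nn J) {a : Ct} (ha : a * qT S0 = qT S0 * a) {b : G} (hb : b ∈ P) :
    b * J a * b⁻¹ * (J a)⁻¹ ∈ P := by
  have := mul_mem hb (h.norm a ha _ (inv_mem hb))
  simpa [mul_assoc] using this

theorem V_mem (h : LD z R P Nn J) (t e : ZMod 2) :
    J (qT ⟨0, t • e11, e⟩) ∈ P := by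
  have h1 : J (qT MonU.zq) ∈ P := h.zq.symm ▸ h.z_mem
  rcases Spor.zmod2_cases t with rfl | rfl <;> rcases Spor.zmod2_cases e with rfl | rfl
  · rw [zero_smul, show (⟨0, 0, 0⟩ : HQ) = 1 from rfl, map_one, map_one]; exact P.one_mem
  · rw [zero_smul]; exact h1
  · rw [one_smul, show (⟨0, e11, 0⟩ : HQ) = XOM from rfl, ← S0_mul_zq, map_mul, map_mul]
    exact P.mul_mem h.xs.z_mem h1
  · rw [one_smul]; exact h.xs.z_mem

theorem E_mem (h : LD z R P Nn J) (b : V12) (e : ZMod 2) : J (qT ⟨0, b, e⟩) ∈ P := by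
  have key : ∀ (q : HQ) (b : V12) (t e : ZMod 2), J (qT q) ∈ P → q.a = 0 → q.b = b + t • e11 →
      J (qT ⟨0, b, e⟩) ∈ P := fun q b t e a h1 h2 => by
    have := P.mul_mem a (h.V_mem t (q.e + e))
    rw [← map_mul, ← map_mul] at this
    convert this using 3
    ext1 <;> simp [h1, h2, add_assoc, ← add_assoc q.e, GD.add_self]
  induction b using UA.V12_induction with
  | h0 => simpa using h.V_mem 0 e
  | ha a b ha hb =>
    have := P.mul_mem ha hb
    rw [← map_mul, ← map_mul] at this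
    exact key _ _ 0 _ this (by simp) (by simp)
  | h1 k =>
    induction k using Fin.lastCases with
    | last => exact key _ _ 0 _ h.xs.z_mem rfl (by simp [S0, e11])
    | cast k =>
      obtain ⟨a, c, ha, hc, H⟩ := exists_hat k
      obtain ⟨y, hy⟩ := exists_YT (c11_mem c)
      obtain ⟨r, hr⟩ := h.exy _ hy.fst_mem
      have h1 := h.comm_mem (a := qT ⟨a, 0, 0⟩) (by
        rw [← map_mul, ← map_mul]
        refine congrArg qT ?_
        ext1 <;> simp [S0, e11, ha]) hr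
      have h2 : r * ⟨a, 0, 0⟩ = ⟨a, 0, r.b ⬝ᵥ a⟩ * r := by ext1 <;> simp [add_comm]
      have h3 := hy.mul_qT ⟨a, 0, r.b ⬝ᵥ a⟩ ha
      rw [co_c11, c11_low, H] at h3
      rw [← map_inv, ← map_inv, ← map_mul, ← map_mul, ← map_mul, mul_assoc y, ← map_mul, h2,
        map_mul qT, ← mul_assoc y, h3, mul_assoc _ y, mul_inv_cancel_right, ← map_inv,
        ← map_mul] at h1
      exact key _ _ (th (c11 c) (c11 a)) _ h1 (by simp) (by simp)

theorem y_mem (h : LD z R P Nn J) {d : W} {y : Ct} (hy : YT d y) : J y ∈ P := by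
  obtain ⟨r, hr⟩ := h.exy _ hy.fst_mem
  have ha : r.a = 0 := ext_dot fun b => by
    have h1 := h.xs.conj hr (h.E_mem b 0)
    have h2 : r * ⟨0, b, 0⟩ = ⟨0, b, b ⬝ᵥ r.a⟩ * r := by
      ext1 <;> simp [add_comm, add_left_comm, GD.add_self]
    rw [← map_inv, ← map_mul, ← map_mul, mul_assoc y, ← map_mul, h2, map_mul qT, ← mul_assoc y,
      hy.mul_E, mul_assoc _ y, mul_inv_cancel_right, ← map_mul, ← map_mul] at h1
    rw [dotProduct_comm, zero_dotProduct]
    rcases h1 with e | e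
    all_goals
      have e1 := congrArg HQ.e (h.inj' _ _ e)
      have e2 := congrFun (congrArg HQ.b (h.inj' _ _ e)) 11
      simp [S0, e11] at e1 e2
      simpa [e2] using e1
  have : r = ⟨0, r.b, r.e⟩ := by rw [← ha]
  rw [map_mul, this] at hr
  exact (P.mul_mem_cancel_right (h.E_mem _ _)).1 hr

theorem mem_E (h : LD z R P Nn J) {x : G} (hx : x ∈ P)
    (hc : ∀ b e, J (qT ⟨0, b, e⟩) * x = x * J (qT ⟨0, b, e⟩)) : ∃ b e, x = J (qT ⟨0, b, e⟩) := by
  have key : ∀ x ∈ R ⊓ P, ∃ b e, x = J (qT ⟨0, b, e⟩) := fun x hx => by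
    obtain ⟨r, rfl⟩ := h.mem_R.1 hx.1
    have ha : r.a = 0 := ext_dot fun b => by
      have := h.E_comm hx ⟨h.mem_R.2 ⟨_, rfl⟩, h.E_mem b 0⟩
      rw [← map_mul, ← map_mul, ← map_mul, ← map_mul] at this
      simpa [dotProduct_comm] using congrArg HQ.e (h.inj' _ _ this)
    exact ⟨r.b, r.e, by rw [← ha]⟩
  refine key x ⟨h.selfc x hx fun y hy => ?_, hx⟩
  obtain ⟨b, e, rfl⟩ := key y hy
  exact hc b e

theorem exists_p (h : LD z R P Nn J) : ∃ p ∈ P, p * p = 1 ∧ p * z * p⁻¹ = z * J (qT S0) ∧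
      ∀ b, b 11 = 0 → J (qT ⟨0, b, 0⟩) * p = p * J (qT ⟨0, b, 0⟩) := by
  let E1 : Subgroup HQ :=
    { carrier := {q | q.a = 0 ∧ q.b 11 = q.e}
      one_mem' := ⟨rfl, rfl⟩
      mul_mem' := fun {a b} ha hb => ⟨by simp [ha.1, hb.1], by simp [ha.2, hb.2, hb.1]⟩
      inv_mem' := fun {a} ha => ⟨ha.1, by simp [ha.1, ha.2]⟩ }
  obtain ⟨p, h1, h2, h3⟩ := h.exc (E1.map (J.comp qT)) (by
      rintro _ ⟨q, hq, rfl⟩
      have : q = ⟨0, q.b, q.e⟩ := by rw [← hq.1]
      rw [this]; exact h.E_mem _ _) ⟨S0, ⟨rfl, e11_11⟩, rfl⟩ z h.z_mem (by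
      rintro ⟨q, hq, e⟩
      rw [h.inj' _ _ (e.trans h.zq.symm)] at hq
      exact absurd hq.2 (by decide))
  have h4 := h.xs.conj_of_ne h1 h.z_mem h3
  have h5 : ∀ b, b 11 = 0 → J (qT ⟨0, b, 0⟩) * p = p * J (qT ⟨0, b, 0⟩) := fun b hb =>
    h2 _ ⟨⟨0, b, 0⟩, ⟨rfl, hb⟩, rfl⟩
  rcases h.xs.sq h1 with e | e
  · exact ⟨p, h1, e, h4, h5⟩
  · refine ⟨z * p, P.mul_mem h.z_mem h1, ?_, ?_, fun b hb => ?_⟩
    · calc z * p * (z * p) = z * (p * z * p⁻¹) * (p * p) := by group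
        _ = 1 := by rw [h4, e, ← mul_assoc, h.z_sq, one_mul, h.xs.z_sq]
    · calc z * p * z * (z * p)⁻¹ = z * (p * z * p⁻¹) * z⁻¹ := by group
        _ = _ := by rw [h4, ← h.sz]; group; exact h.sz.symm
    · rw [← mul_assoc, h.comm_z, mul_assoc, h5 b hb, mul_assoc]

theorem norm_AT (h : LD z R P Nn J) {p : G} (h1 : p ∈ P) (h2 : p * z * p⁻¹ = z * J (qT S0))
    (h3 : ∀ b, b 11 = 0 → J (qT ⟨0, b, 0⟩) * p = p * J (qT ⟨0, b, 0⟩)) {a : Ct} (ha : a ∈ AT) :
    ∃ b, b 11 = 0 ∧ p * J a * p⁻¹ = J (qT ⟨0, b, 0⟩ * a) := by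
  have hs := h.xs.z_comm p h1
  have hV : ∀ (t : ZMod 2) (e : ZMod 2), ∀ a ∈ AT, Commute a (qT ⟨0, t • e11, e⟩) := by
    intro t e a ha
    have a1 : Commute a (qT S0) := AT_S0 ha
    have a2 : Commute a (qT MonU.zq) := zq_comm a
    rcases Spor.zmod2_cases t with rfl | rfl <;> rcases Spor.zmod2_cases e with rfl | rfl
    · rw [zero_smul, show (⟨0, 0, 0⟩ : HQ) = 1 from rfl, map_one]; exact Commute.one_right _
    · rw [zero_smul]; exact a2
    · rw [one_smul, show (⟨0, e11, 0⟩ : HQ) = XOM from rfl, ← S0_mul_zq, map_mul]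
      exact a1.mul_right a2
    · rw [one_smul]; exact a1
  have k1 : ∀ a ∈ AT, ∃ b e, p * J a * p⁻¹ = J (qT ⟨0, b, e⟩ * a) := fun a ha => by
    have as : J a * J (qT S0) = J (qT S0) * J a := by rw [← map_mul, AT_S0 ha, map_mul]
    have hc : p * J a * p⁻¹ * (J a)⁻¹ ∈ P := by
      have := P.mul_mem h1 (h.norm a (AT_S0 ha) _ (P.inv_mem h1))
      simpa only [mul_assoc] using this
    obtain ⟨b, e, H⟩ := h.mem_E hc fun b e => by
      have c1 : Commute (J (qT ⟨0, low b, 0⟩)) (p * J a * p⁻¹ * (J a)⁻¹) := by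
        obtain ⟨b', h4, h5⟩ := exists_E0 (a := a⁻¹ * qT ⟨0, low b, 0⟩ * a)
          (mul_mem (mul_mem (inv_mem ha) (E0_mem (low_11 b))) ha) (by simp)
        have h6 := congrArg J h5
        rw [map_mul, map_mul, map_inv] at h6
        have h7 := h3 _ h4
        have h8 := h3 _ (low_11 b)
        rw [← h6] at h7
        generalize J (qT ⟨0, low b, 0⟩) = x, J a = u at h7 h8
        calc x * (p * u * p⁻¹ * u⁻¹) = p * u * (u⁻¹ * x * u) * p⁻¹ * u⁻¹ := by
              rw [← mul_assoc, ← mul_assoc, ← mul_assoc, h8]; group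
          _ = p * u * p⁻¹ * (p * (u⁻¹ * x * u)) * p⁻¹ * u⁻¹ := by group
          _ = _ := by rw [← h7]; group
      have c2 : Commute (J (qT S0)) (p * J a * p⁻¹ * (J a)⁻¹) := (h.xs.z_comm _ hc).symm
      have c3 : Commute z (p * J a * p⁻¹ * (J a)⁻¹) := by
        have az := h.comm_z a
        have ss := h.xs.z_sq
        clear h
        generalize J (qT S0) = s, J a = u at *
        have h4 : p⁻¹ * z * p = z * s := by
          have : z = p * (z * s) * p⁻¹ := by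
            rw [← mul_assoc, mul_assoc _ s, ← comm_inv_left hs, ← mul_assoc, h2, mul_assoc,
              ss, mul_one]
          nth_rw 1 [this]; group
        calc z * (p * u * p⁻¹ * u⁻¹) = p * (p⁻¹ * z * p * u) * p⁻¹ * u⁻¹ := by group
          _ = p * u * p⁻¹ * (p * (z * s) * p⁻¹) * u⁻¹ := by
            rw [h4, mul_assoc z, ← as, ← mul_assoc z, ← az]; group
          _ = _ := by rw [← h4, mul_assoc _ _ z, comm_inv_left az]; group
      rw [E_eq, map_mul, map_mul, map_mul, map_mul]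
      refine (c1.mul_left ?_).mul_left ?_
      · rcases Spor.zmod2_cases (b 11) with k | k <;> rw [k]
        · rw [zero_smul, show (⟨0, 0, 0⟩ : HQ) = 1 from rfl, map_one, map_one]
          exact Commute.one_left _
        · rw [one_smul]; exact c2
      · rcases Spor.zmod2_cases (e + b 11) with k | k <;> rw [k]
        · rw [show (⟨0, 0, 0⟩ : HQ) = 1 from rfl, map_one, map_one]
          exact Commute.one_left _
        · exact h.zq.symm ▸ c3
    exact ⟨b, e, by rw [map_mul, ← H, inv_mul_cancel_right]⟩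
  let T : Subgroup Ct := AT ⊓ (AT.map J).comap ((MulAut.conj p).toMonoidHom.comp J)
  have hT : AT ≤ T := AT_le inf_le_left (fun a ha a' ha' => by
    refine ⟨AT.mul_mem (AT.mul_mem (AT.mul_mem ha ha') (AT.inv_mem ha)) (AT.inv_mem ha'), ?_⟩
    have k2 : ∀ a ∈ AT, ∃ x ∈ AT, ∃ t e, p * J a * p⁻¹ = J (x * qT ⟨0, t • e11, e⟩) :=
      fun a ha => by
        obtain ⟨b, e, H⟩ := k1 a ha
        refine ⟨_, mul_mem (E0_mem (low_11 b)) ha, b 11, e, ?_⟩
        rw [H, mul_assoc, (hV _ _ a ha).eq, ← mul_assoc, ← map_mul qT]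
        refine congrArg (fun q => J (qT q * a)) ?_
        ext1 <;> simp [low_add_e11]
    obtain ⟨x, hx, t, e, H⟩ := k2 a ha
    obtain ⟨x', hx', t', e', H'⟩ := k2 a' ha'
    refine ⟨x * x' * x⁻¹ * x'⁻¹,
      mul_mem (mul_mem (mul_mem hx hx') (inv_mem hx)) (inv_mem hx'), ?_⟩
    have c1 := hV t e x' hx'
    have c2 := hV t' e' x hx
    have c3 : Commute (qT ⟨0, t • e11, e⟩) (qT ⟨0, t' • e11, e'⟩) := by
      refine Commute.map ?_ qT
      ext1 <;> simp [add_comm]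
    calc J (x * x' * x⁻¹ * x'⁻¹) = J (x * qT ⟨0, t • e11, e⟩ * (x' * qT ⟨0, t' • e11, e'⟩) *
          (x * qT ⟨0, t • e11, e⟩)⁻¹ * (x' * qT ⟨0, t' • e11, e'⟩)⁻¹) := by
          congr 1
          generalize qT ⟨0, t • e11, e⟩ = v, qT ⟨0, t' • e11, e'⟩ = w at c1 c2 c3
          calc _ = x * x' * (w * x⁻¹) * w⁻¹ * x'⁻¹ := by rw [← c2.inv_left.eq]; group
            _ = _ := by rw [mul_assoc x v, (c1.symm.mul_right c3).eq]; group
      _ = _ := by
        simp only [map_mul, map_inv] at H H' ⊢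
        rw [← H, ← H']
        simp only [MonoidHom.comp_apply, MulEquiv.coe_toMonoidHom, MulAut.conj_apply]) (
    fun b hb => ⟨E0_mem hb, _, E0_mem hb, by
      simp only [MonoidHom.comp_apply, MulEquiv.coe_toMonoidHom, MulAut.conj_apply]
      rw [← h3 b hb, mul_inv_cancel_right]⟩)
  obtain ⟨a', h4, h5⟩ := (hT ha).2
  obtain ⟨b, e, H⟩ := k1 a ha
  simp only [MonoidHom.comp_apply, MulEquiv.coe_toMonoidHom, MulAut.conj_apply] at h5
  have h6 : J (a' * a⁻¹) = J (qT ⟨0, b, e⟩) := by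
    rw [map_mul, h5, H, ← map_mul, mul_inv_cancel_right]
  have h7 : (a' * a⁻¹).1.1 = 1 := by
    obtain ⟨σ, hσ⟩ := (mul_mem h4 (inv_mem ha)).1
    have := h.ker _ (h.mem_R.2 ⟨_, h6.symm⟩)
    rw [← hσ] at this ⊢
    rw [eq_one_of_permHom_mem_sgnSub (center_le_sgnSub this), map_one]
  obtain ⟨b', h8, h9⟩ := exists_E0 (mul_mem h4 (inv_mem ha)) h7
  exact ⟨b', h8, by rw [← h9, inv_mul_cancel_right, h5]⟩

theorem exists_tau (h : LD z R P Nn J) :
    ∃ τ ∈ Nn, Tri J (cjJ J τ) ∧ J (qT D0) * τ * J (qT D0) * τ = 1 := by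
  obtain ⟨p, h1, h2, h3, h4⟩ := h.exists_p
  have hD : J (qT D0) * J (qT D0) = 1 := by rw [← map_mul, ← map_mul, D0_sq, map_one, map_one]
  have hX : J (qT XOM) = z * J (qT S0) := by rw [← zq_mul_S0, map_mul, map_mul, h.zq]
  have d1 : J (qT D0) * J (qT S0) * J (qT D0) = z * J (qT S0) := by
    rw [← hX, ← map_mul, ← map_mul, ← map_mul, ← map_mul]
    refine congrArg (fun q => J (qT q)) ?_
    ext1 <;> simp [D0, S0, XOM, e11, GD.add_self]
  have d2 := h.comm_z (qT D0)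
  have ps := h.xs.z_comm p h1
  have ss := h.xs.z_sq
  have zz := h.z_sq
  have hA : ∀ a ∈ AT, p * J (qT D0) * (p * J (qT D0)) * J a =
      J a * (p * J (qT D0) * (p * J (qT D0))) := fun a ha => by
    obtain ⟨b, hb, H⟩ := exists_E0 (a := qT D0 * a * qT D0 * a⁻¹)
      (mul_mem (D0_conj_mem ha) (inv_mem ha)) (by simp)
    obtain ⟨b', hb', H'⟩ := h.norm_AT h1 h3 h4 ha
    have c : ∀ b, b 11 = 0 → J (qT ⟨0, b, 0⟩) * J (qT D0) = J (qT D0) * J (qT ⟨0, b, 0⟩) :=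
      fun b hb => by
        rw [← map_mul, ← map_mul, ← map_mul, ← map_mul]
        refine congrArg (fun q => J (qT q)) ?_
        ext1 <;> simp [D0, e11, hb]
    have e : p * J (qT D0) * J a = J (qT ⟨0, b + b', 0⟩) * J a * (p * J (qT D0)) := by
      have := congrArg J (mul_inv_eq_iff_eq_mul.1 H)
      rw [map_mul, map_mul, map_mul] at this
      rw [map_mul] at H'
      rw [show (⟨0, b + b', 0⟩ : HQ) = ⟨0, b, 0⟩ * ⟨0, b', 0⟩ by ext1 <;> simp, map_mul, map_mul,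
        mul_assoc (J (qT ⟨0, b, 0⟩)), ← H']
      calc _ = p * (J (qT D0) * J a * J (qT D0)) * (J (qT D0))⁻¹ := by group
        _ = _ := by rw [this, ← mul_assoc, ← h4 b hb, inv_eq_of_mul_eq_one_left hD]; group
    have e1 := h4 (b + b') (by simp [hb, hb'])
    have e2 := c (b + b') (by simp [hb, hb'])
    have e3 : J (qT ⟨0, b + b', 0⟩) * J (qT ⟨0, b + b', 0⟩) = 1 := by
      rw [← map_mul, ← map_mul, show (⟨0, b + b', 0⟩ : HQ) * ⟨0, b + b', 0⟩ = 1 by ext1 <;> simp,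
        map_one, map_one]
    have e4 : Commute (J (qT ⟨0, b + b', 0⟩)) (p * J (qT D0)) := Commute.mul_right e1 e2
    generalize p * J (qT D0) = u, J (qT ⟨0, b + b', 0⟩) = c at e e3 e4
    rw [mul_assoc, e, ← mul_assoc, ← mul_assoc, ← e4.eq, mul_assoc c, e, ← mul_assoc, ← mul_assoc,
      e3, one_mul, mul_assoc]
  have hy := fun (d : W) (y : Ct) (hy : YT d y) => h.y_mem hy
  have hc := h.compat
  have hm : p * J (qT D0) * (p * J (qT D0)) ∈ Nn :=
    mul_mem (mul_mem (h.le h1) (h.memN _)) (mul_mem (h.le h1) (h.memN _))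
  have hi := h.inj'
  have hR := fun x => h.mem_R (x := x)
  have hz := h.zq
  generalize hDD : J (qT D0) = D at *
  have pi : p⁻¹ = p := inv_eq_of_mul_eq_one_left h2
  have Di : D⁻¹ = D := inv_eq_of_mul_eq_one_left hD
  have a1 : D * z * D = z := by rw [d2, mul_assoc, hD, mul_one]
  have a2 : p * J (qT S0) * p = J (qT S0) := by rw [ps, mul_assoc, h2, mul_one]
  rw [pi] at h3
  have a3 : D * (z * J (qT S0)) * D = J (qT S0) := by
    rw [← d1, ← mul_assoc, ← mul_assoc, hD, one_mul, mul_assoc, hD, mul_one]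
  have a4 : p * (z * J (qT S0)) * p = z := by
    rw [← h3, ← mul_assoc, ← mul_assoc, h2, one_mul, mul_assoc, h2, mul_one]
  have ti : (p * D * (p * D))⁻¹ = D * p * (D * p) := by
    rw [_root_.mul_inv_rev, _root_.mul_inv_rev, pi, Di]
  have conv : ∀ x, (p * D * (p * D))⁻¹ * x * (p * D * (p * D)) =
      D * (p * (D * (p * x * p) * D) * p) * D := fun x => by rw [ti]; simp only [mul_assoc]
  have ts : (p * D * (p * D))⁻¹ * J (qT S0) * (p * D * (p * D)) = z := by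
    rw [conv, a2, d1, a4, a1]
  refine ⟨p * D * (p * D), hm, ⟨hi, fun a ha => ?_, ?_, ?_, fun d _ y hy' => ?_⟩, ?_⟩
  · rw [cjJ_apply, mul_assoc, ← hA a ha, inv_mul_cancel_left]
  · rw [cjJ_apply, hz, conv, h3, a3, a2, d1, hX]
  · rw [cjJ_apply, ts, hz]
  · obtain ⟨r, hr⟩ := (hR _).1 (hc (p * D * (p * D)) hm (by rw [← ts]; group)
      ((p * D * (p * D))⁻¹ * J y * (p * D * (p * D))) (by
        convert hy d y hy' using 1; group))
    exact ⟨r, by rw [cjJ_apply, hr]⟩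
  · calc D * (p * D * (p * D)) * D * (p * D * (p * D))
        = D * (p * (D * (p * (D * D) * p) * D) * p) * D := by simp only [mul_assoc]
      _ = 1 := by rw [hD, mul_one, h2, mul_one, hD, mul_one, h2, mul_one, hD]

end LD

theorem exists_LD (J : Ct →* G) (Nn : Subgroup G) [Finite Nn]
    (hinj : Function.Injective (J.comp qT))
    (hker : ∀ y, J y ∈ (J.comp qT).range ↔ y.1.1 ∈ center Co0)
    (hQ : ∀ q, J (qT q) ∈ Nn) (hN : ∀ y : Ct, y * qT S0 = qT S0 * y → J y ∈ Nn)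
    (hz : ∀ n ∈ Nn, n * J (qT zq) = J (qT zq) * n → n ∈ J.range)
    {g : G} (hg : g ∈ Nn) (hs : g * J (qT zq) * g⁻¹ = J (qT S0)) :
    ∃ P, LD (J (qT zq)) (J.comp qT).range P Nn J := by
  have inj : ∀ q r, J (qT q) = J (qT r) → q = r := fun q r e => hinj e
  let f : HQ →* Nn := (J.comp qT).codRestrict Nn hQ
  have hf : ∀ q, (f q : G) = J (qT q) := fun _ => rfl
  have fi : ∀ q r, f q = f r → q = r := fun q r e => inj _ _ (congrArg Subtype.val e)
  have mR : ∀ x : Nn, x ∈ f.range ↔ (x : G) ∈ (J.comp qT).range := fun x =>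
    ⟨fun ⟨q, e⟩ => ⟨q, congrArg Subtype.val e⟩, fun ⟨q, e⟩ => ⟨q, Subtype.ext e⟩⟩
  have hz' : ∀ c : Nn, c * f zq = f zq * c → ∃ y, J y = c := fun c e =>
    hz c c.2 (congrArg Subtype.val e)
  have lx : LX f.range (f zq) := ⟨xs_hom fi, fun c hc => by
      obtain ⟨y, hy⟩ := hz' c (hc _ ⟨zq, rfl⟩).symm
      rw [mR, ← hy, hker]
      exact center_of_comm inj fun q => hy ▸ congrArg Subtype.val (hc _ ⟨q, rfl⟩), by
      rintro c hc _ ⟨q, rfl⟩
      obtain ⟨y, hy⟩ := hz' c hc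
      exact ⟨cj (mkC y) q, Subtype.ext (by
        rw [hf, UA.qT_cj, map_mul, map_mul, map_inv, hy]; rfl)⟩⟩
  have cR : Nat.card f.range = 2 ^ 25 := by
    rw [← card_HQ]
    exact (Nat.card_congr (MonoidHom.ofInjective fun a b => fi a b).toEquiv).symm
  have hs' : (⟨g, hg⟩ : Nn) * f zq * (⟨g, hg⟩ : Nn)⁻¹ = f S0 := Subtype.ext hs
  have hb : (⟨g, hg⟩ : Nn) * f zq * (⟨g, hg⟩ : Nn)⁻¹ ∈ f.range := ⟨S0, hs'.symm⟩
  have hp := lx.pair hb (fun e => absurd (fi _ _ (hs'.symm.trans e)) (by decide))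
    (lx.mem_map_conj_of_card (by rw [cR]; norm_num) hb)
  have cP := (card_map_conj f.range ⟨g, hg⟩).trans cR
  rw [hs'] at hp
  generalize f.range.map (MulAut.conj (⟨g, hg⟩ : Nn)).toMonoidHom = P at hp cP
  choose yc hyc using fun c : centralizer ({f zq} : Set Nn) => hz' c (MonData.comm_z c)
  have eqv : ∀ y y' : Ct, J y = J y' → (y.1.1 : Co1) = y'.1.1 := fun y y' e =>
    QuotientGroup.eq.2 ((hker (y⁻¹ * y')).1 (by
      rw [map_mul, map_inv, e, inv_mul_cancel]; exact Subgroup.one_mem _))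
  let π : centralizer ({f zq} : Set Nn) →* Co1 := MonoidHom.mk' (fun c => ((yc c).1.1 : Co1))
    fun a b => eqv _ (yc a * yc b) (by rw [map_mul, hyc, hyc, hyc]; rfl)
  have hπ : ∀ (c : centralizer ({f zq} : Set Nn)) y, J y = c → π c = y.1.1 := fun c y e =>
    eqv _ _ ((hyc c).trans e.symm)
  have kπ : ∀ c, π c = 1 ↔ (c : Nn) ∈ f.range := fun c => by
    rw [mR, ← hyc, hker]
    exact QuotientGroup.eq_one_iff _
  have cz : ∀ (y : Ct) (h : J y ∈ Nn), (⟨J y, h⟩ : Nn) ∈ centralizer ({f zq} : Set Nn) :=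
    fun y h => mem_centralizer_singleton_iff.2 (Subtype.ext (by
      show J y * J _ = J _ * J y
      rw [← map_mul, zq_comm, map_mul]))
  have cs : ∀ (y : Ct) (h : y * qT S0 = qT S0 * y), (⟨J y, hN y h⟩ : Nn) * f S0 =
      f S0 * ⟨J y, hN y h⟩ := fun y h => Subtype.ext (by
    show J y * J _ = J _ * J y
    rw [← map_mul, h, map_mul])
  have := Co.finite_Co0
  have le : MonData.preim π P ≤ sgnSub := by
    refine le_sgnSub_of_normal_two (fun a ha => ?_) (MonData.isPGroup_preim hp.hP.isPGroup)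
      fun σ n hn => ?_
    · obtain ⟨c, h1, h2⟩ := MonData.mem_preim.1 ha
      have h3 := mono_of_comm (y := yc c) (inj _ _ (by
        have e : ((c : Nn) : G) * J (qT S0) = J (qT S0) * (c : Nn) :=
          congrArg Subtype.val (hp.hP.z_comm _ h1)
        rw [UA.qT_cj, map_mul, map_mul, map_inv, hyc, e, mul_inv_cancel_right]))
      rcases mk_eq_mk_Co1.1 h2 with e | e <;> rw [e]
      exacts [h3, mul_mem negOne_mem h3]
    · obtain ⟨c, h1, h2⟩ := MonData.mem_preim.1 hn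
      obtain ⟨q, a, ha⟩ := exists_AuT σ
      have h3 := AT_S0 ha.mem
      let a' : centralizer ({f zq} : Set Nn) := ⟨⟨J a, hN a h3⟩, cz _ _⟩
      refine MonData.mem_preim.2 ⟨a' * c * a'⁻¹, hp.hP.norm _ (cs a h3) _ h1, ?_⟩
      rw [QuotientGroup.mk_mul, QuotientGroup.mk_mul, QuotientGroup.mk_inv, h2, map_mul, map_mul,
        map_inv, hπ a' a rfl, ha.fst]
  have c1 := card_image_mul hp π kπ
  have c2 := MonData.card_preim (π := π) P
  have c3 := card_E_sq_le hp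
  have c4 := card_le_of_le le
  rw [cR, show 2 * 2 ^ 25 = (2 ^ 13) ^ 2 by norm_num,
    Nat.pow_le_pow_iff_left two_ne_zero] at c3
  rw [card_sgnSub] at c4
  rw [cP] at c1
  generalize Nat.card ((P.subgroupOf (centralizer ({f zq} : Set Nn))).map π) = m at c1 c2
  have c5 : m = 2048 ∧ Nat.card (f.range ⊓ P : Subgroup Nn) = 2 ^ 13 := by
    have a1 := Nat.mul_le_mul_left m c3
    have a2 := Nat.mul_le_mul_right (Nat.card (f.range ⊓ P : Subgroup Nn)) (show m ≤ 2048 by omega)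
    omega
  have eq : MonData.preim π P = sgnSub :=
    eq_of_le_of_card_ge le (by rw [card_sgnSub, c2, c5.1])
  have mP : ∀ x : Nn, (x : G) ∈ P.map Nn.subtype ↔ x ∈ P := fun x => coe_mem_map_subtype
  refine ⟨P.map Nn.subtype, inj, rfl, rfl, fun y => (hker y).1, hQ, map_subtype_le _,
    hp.hP.toXS.map Nn.subtype fun x _ e => Subtype.ext e, (mP (f zq)).2 hp.z_mem, ?_, ?_, ?_,
    fun y hy => ?_, fun a ha e x hx => ?_⟩
  · rintro y hy _ ⟨x, hx, rfl⟩
    exact ⟨_, hp.hP.norm _ (cs y hy) x hx, rfl⟩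
  · rintro _ ⟨x, hx, rfl⟩ hc
    have h1 := hp.hP.card_mul_card_centralizer (A := f.range ⊓ P) inf_le_right
      ⟨hp.s_mem, hp.hP.z_mem⟩
    have h3 : f.range ⊓ P = P ⊓ centralizer ((f.range ⊓ P : Subgroup Nn) : Set Nn) :=
      eq_of_le_of_card_ge (fun x hx => ⟨hx.2, fun y hy => E_comm hp hy hx⟩) (by
        rw [c5.2, cP] at h1; omega)
    exact (mR x).1 (h3.ge ⟨hx, fun y hy =>
      Subtype.ext (hc y ⟨(mR y).1 hy.1, (mP y).2 hy.2⟩)⟩).1
  · rintro A hA h1 _ ⟨x, hx, rfl⟩ h2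
    obtain ⟨q, h3, h4, h5⟩ := hp.hP.exists_comm_not_comm (A := A.subgroupOf Nn)
      (fun a ha => (mP a).1 (hA ha)) h1 hx h2
    exact ⟨q, (mP q).2 h3, fun a ha => congrArg Subtype.val
      (h4 ⟨a, map_subtype_le _ (hA ha)⟩ ha), fun e => h5 (Subtype.ext e)⟩
  · obtain ⟨c, h1, h2⟩ := MonData.mem_preim.1 (eq.ge hy)
    obtain ⟨r, hr⟩ := (hker (y⁻¹ * yc c)).2 (QuotientGroup.eq.1 h2)
    refine ⟨r, ?_⟩
    have : J (qT r) = (J y)⁻¹ * J (yc c) := hr.trans (by rw [map_mul, map_inv])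
    rw [map_mul, this, mul_inv_cancel_left, hyc]
    exact (mP _).2 h1
  · have h1 : x ∈ Nn := by
      simpa [mul_assoc] using mul_mem (mul_mem (inv_mem ha) (map_subtype_le _ hx)) ha
    exact (mR ⟨x, h1⟩).1 ((hp.compat ⟨a, ha⟩ (Subtype.ext e) _).2 ((mP _).1 hx))

end Cfsg.Agent.MonU.Uq

namespace Cfsg.Agent.MonU

open Cfsg Cfsg.Spor Subgroup Uq

theorem amal0_local {G : Type*} [Group G] (J : Ct →* G) (Nn : Subgroup G) [Finite Nn]
    (hinj : Function.Injective (J.comp qT))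
    (hker : ∀ y, J y ∈ (J.comp qT).range ↔ y.1.1 ∈ center Co0)
    (hQ : ∀ q, J (qT q) ∈ Nn) (hN : ∀ y : Ct, y * qT S0 = qT S0 * y → J y ∈ Nn)
    (hz : ∀ n ∈ Nn, n * J (qT zq) = J (qT zq) * n → n ∈ J.range)
    {g : G} (hg : g ∈ Nn) (hs : g * J (qT zq) * g⁻¹ = J (qT S0)) :
    ∃ (ι : C →* G) (τ : G), τ ∈ Nn ∧ Function.Injective ι ∧ (∀ y, ι (mkC y) = J y) ∧
      Amal0 ⊤ ι τ := by
  obtain ⟨P, hJ⟩ := exists_LD J Nn hinj hker hQ hN hz hg hs
  obtain ⟨τ, hτ, ht, hi⟩ := hJ.exists_tau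
  have hn : J negT = 1 := by
    have := ht.negT_eq
    rw [cjJ_apply] at this
    calc J negT = τ * (τ⁻¹ * J negT * τ) * τ⁻¹ := by group
      _ = 1 := by rw [this]; group
  let ι : C →* G := QuotientGroup.lift _ J (by
    rintro _ ⟨k, rfl⟩
    rw [MonoidHom.mem_ker, map_zpow, hn, one_zpow])
  have hι : ∀ x, ι (mkC x) = J x := fun _ => rfl
  refine ⟨ι, τ, hτ, (injective_iff_map_eq_one ι).2 fun c hc => ?_, hι,
    fun a _ b _ => map_mul ι a b, fun n m hb _ _ => ?_,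
    tri_cube' ht hi (hz _ (mul_mem (mul_mem hτ hτ) hτ)) fun y => (hker y).2, hi⟩
  · obtain ⟨x, rfl⟩ := mkC_surjective c
    have : mkC x ∈ Q := by
      rw [← ker_piC, MonoidHom.mem_ker, piC_mkC, QuotientGroup.eq_one_iff, ← hker,
        show J x = 1 from hc]
      exact Subgroup.one_mem _
    obtain ⟨r, hr⟩ := this
    rw [← hr] at hc ⊢
    rw [hinj (hc.trans (map_one (J.comp qT)).symm), map_one]
  · induction hb with
    | one => simp
    | mul _ _ a b =>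
      rw [map_mul, map_mul, ← a trivial trivial, ← b trivial trivial]; group
    | y hy =>
      obtain ⟨y, rfl, hy'⟩ := isY_YT hy
      rw [hι, ← cjJ_apply, ht.Y (c11_mem _) hy', xw_c11]; rfl
    | x hy =>
      obtain ⟨y, rfl, hy'⟩ := isY_YT hy
      exact (cjJ_apply _).symm.trans (tri_X ht hi hy')
    | aut ha =>
      obtain ⟨q, a, rfl, ha'⟩ := isAut_AuT ha
      rw [hι, ← cjJ_apply, ht.a a ha'.mem]
    | z => exact (cjJ_apply _).symm.trans ht.z
    | s => exact (cjJ_apply _).symm.trans ht.s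

end Cfsg.Agent.MonU
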